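import Mathlib

/-!
# The combinatorics of a family of integer vectors of norm four

Vectors `c ψ` of norm `4` with pairwise inner products `3` (or `4` for equivalent indices), with a common
coordinate `-1`.
-/

set_option autoImplicit false
set_option linter.unusedSectionVars false
set_option linter.unusedSimpArgs false
set_option linter.unusedVariables false
set_option linter.style.haveILetI false
set_option linter.unnecessarySimpa false

namespace Cfsg.Agent.Lib.Exc3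

variable {I Φ : Type*} [Fintype I] [DecidableEq I] [Fintype Φ]

/-- The hypotheses on the integer matrix. -/
structure CombiData (i₀ : I) (d : I → ℤ) (R : Φ → Φ → Prop) (c : Φ → I → ℤ) : Prop where
  hd : ∀ i, 0 < d i
  hd0 : d i₀ = 1
  hc0 : ∀ ψ, c ψ i₀ = -1
  hin : ∀ ψ φ, R ψ φ → ∑ i, c ψ i * c φ i = 4
  hne : ∀ ψ φ, ¬ R ψ φ → ∑ i, c ψ i * c φ i = 3
  hdeg : ∀ ψ, ∑ i, c ψ i * d i = 0
  hrefl : ∀ ψ, R ψ ψ
  hsymm : ∀ ψ φ, R ψ φ → R φ ψ

/-- The support away from `i₀`. -/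
def supp (i₀ : I) (c : Φ → I → ℤ) (ψ : Φ) : Finset I := Finset.univ.filter fun i => i ≠ i₀ ∧ c ψ i ≠ 0

theorem mem_supp {i₀ : I} {c : Φ → I → ℤ} {ψ : Φ} {i : I} : i ∈ supp i₀ c ψ ↔ i ≠ i₀ ∧ c ψ i ≠ 0 := by
  simp [supp]

theorem sum_eq_supp {i₀ : I} {c : Φ → I → ℤ} (ψ : Φ) (g : I → ℤ) (hg : ∀ i, c ψ i = 0 → g i = 0) :
    ∑ i, g i = g i₀ + ∑ i ∈ supp i₀ c ψ, g i := by
  rw [← Finset.add_sum_erase _ _ (Finset.mem_univ i₀)]
  congr 1
  symm
  apply Finset.sum_subset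
  · intro i hi
    rw [mem_supp] at hi
    exact Finset.mem_erase.2 ⟨hi.1, Finset.mem_univ _⟩
  · intro i hi hi'
    apply hg
    by_contra hne
    exact hi' (mem_supp.2 ⟨(Finset.mem_erase.1 hi).1, hne⟩)

section

variable {i₀ : I} {d : I → ℤ} {R : Φ → Φ → Prop} {c : Φ → I → ℤ} (h : CombiData i₀ d R c)

include h

theorem sum_sq_supp (ψ : Φ) : ∑ i ∈ supp i₀ c ψ, c ψ i * c ψ i = 3 := by
  have h1 := h.hin ψ ψ (h.hrefl ψ)
  rw [sum_eq_supp (i₀ := i₀) (c := c) ψ (fun i => c ψ i * c ψ i) (fun i hi => by simp [hi]), h.hc0] at h1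
  linarith

theorem entry_sq (ψ : Φ) {i : I} (hi : i ∈ supp i₀ c ψ) : c ψ i * c ψ i = 1 := by
  by_contra hne
  have hi0 := (mem_supp.1 hi).2
  have h2 : 2 ≤ |c ψ i| := by
    have h3 : 1 ≤ |c ψ i| := Int.one_le_abs hi0
    by_contra h4
    have h5 : |c ψ i| = 1 := by omega
    apply hne
    have h6 := abs_mul_abs_self (c ψ i)
    rw [h5] at h6
    linarith
  have h3 : 4 ≤ c ψ i * c ψ i := by
    have h6 := abs_mul_abs_self (c ψ i)
    nlinarith
  have h4 := Finset.single_le_sum (f := fun i => c ψ i * c ψ i) (fun j _ => mul_self_nonneg _) hi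
  have h5 := sum_sq_supp h ψ
  linarith

theorem entry_eq (ψ : Φ) {i : I} (hi : i ∈ supp i₀ c ψ) : c ψ i = 1 ∨ c ψ i = -1 := by
  have h1 := entry_sq h ψ hi
  have h2 : (c ψ i - 1) * (c ψ i + 1) = 0 := by linarith
  rcases mul_eq_zero.1 h2 with h3 | h3
  · left; linarith
  · right; linarith

theorem card_supp (ψ : Φ) : (supp i₀ c ψ).card = 3 := by
  have h1 := sum_sq_supp h ψ
  rw [Finset.sum_congr rfl fun i hi => entry_sq h ψ hi] at h1
  have h2 : ((supp i₀ c ψ).card : ℤ) = 3 := by simpa using h1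
  exact_mod_cast h2

theorem eq_of_R {ψ φ : Φ} (hR : R ψ φ) : c ψ = c φ := by
  have h1 : ∑ i, (c ψ i - c φ i) * (c ψ i - c φ i) = 0 := by
    have h2 : ∀ i, (c ψ i - c φ i) * (c ψ i - c φ i) = c ψ i * c ψ i - 2 * (c ψ i * c φ i) + c φ i * c φ i := by
      intro i; ring
    simp only [h2]
    rw [Finset.sum_add_distrib, Finset.sum_sub_distrib, ← Finset.mul_sum, h.hin ψ ψ (h.hrefl ψ), h.hin ψ φ hR,
      h.hin φ φ (h.hrefl φ)]
    norm_num
  rw [Finset.sum_eq_zero_iff_of_nonneg (fun i _ => mul_self_nonneg _)] at h1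
  funext i
  have h2 := h1 i (Finset.mem_univ i)
  have h3 := mul_self_eq_zero.1 h2
  linarith

theorem inter_sum {ψ φ : Φ} (hR : ¬ R ψ φ) : ∑ i ∈ supp i₀ c ψ ∩ supp i₀ c φ, c ψ i * c φ i = 2 := by
  have h1 := h.hne ψ φ hR
  rw [sum_eq_supp (i₀ := i₀) (c := c) ψ (fun i => c ψ i * c φ i) (fun i hi => by simp [hi]), h.hc0, h.hc0] at h1
  have h2 : ∑ i ∈ supp i₀ c ψ ∩ supp i₀ c φ, c ψ i * c φ i = ∑ i ∈ supp i₀ c ψ, c ψ i * c φ i := by
    apply Finset.sum_subset Finset.inter_subset_left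
    intro i hi hi'
    have h3 : c φ i = 0 := by
      by_contra hne
      exact hi' (Finset.mem_inter.2 ⟨hi, mem_supp.2 ⟨(mem_supp.1 hi).1, hne⟩⟩)
    simp [h3]
  rw [h2]
  linarith

theorem inter_entry {ψ φ : Φ} (hR : ¬ R ψ φ) {i : I} (hi : i ∈ supp i₀ c ψ) (hi' : i ∈ supp i₀ c φ) : c ψ i = c φ i := by
  have h1 := inter_sum h hR
  have hle : (supp i₀ c ψ ∩ supp i₀ c φ).card ≤ 3 := by
    calc _ ≤ (supp i₀ c ψ).card := Finset.card_le_card Finset.inter_subset_left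
      _ = 3 := card_supp h ψ
  have h2 : ∑ j ∈ supp i₀ c ψ ∩ supp i₀ c φ, (1 - c ψ j * c φ j) = ((supp i₀ c ψ ∩ supp i₀ c φ).card : ℤ) - 2 := by
    rw [Finset.sum_sub_distrib, h1]
    simp
  have h3 : ∀ j ∈ supp i₀ c ψ ∩ supp i₀ c φ, 0 ≤ 1 - c ψ j * c φ j := by
    intro j hj
    rcases entry_eq h ψ (Finset.mem_inter.1 hj).1 with h4 | h4 <;>
      rcases entry_eq h φ (Finset.mem_inter.1 hj).2 with h5 | h5 <;> rw [h4, h5] <;> norm_num
  have hm : i ∈ supp i₀ c ψ ∩ supp i₀ c φ := Finset.mem_inter.2 ⟨hi, hi'⟩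
  have h4 := Finset.single_le_sum (f := fun j => 1 - c ψ j * c φ j) h3 hm
  rw [h2] at h4
  rcases entry_eq h ψ hi with h5 | h5 <;> rcases entry_eq h φ hi' with h6 | h6 <;> rw [h5, h6] at h4 ⊢
  · norm_num at h4
    omega
  · norm_num at h4
    omega

theorem inter_card {ψ φ : Φ} (hR : ¬ R ψ φ) : (supp i₀ c ψ ∩ supp i₀ c φ).card = 2 := by
  have h1 := inter_sum h hR
  rw [Finset.sum_congr rfl (g := fun _ => (1 : ℤ))] at h1
  · have h3 : ((supp i₀ c ψ ∩ supp i₀ c φ).card : ℤ) = 2 := by simpa using h1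
    exact_mod_cast h3
  · intro i hi
    have h2 := inter_entry h hR (Finset.mem_inter.1 hi).1 (Finset.mem_inter.1 hi).2
    show c ψ i * c φ i = 1
    rw [← h2]
    exact entry_sq h ψ (Finset.mem_inter.1 hi).1

theorem supp_eq_iff {ψ φ : Φ} : supp i₀ c ψ = supp i₀ c φ ↔ R ψ φ := by
  constructor
  · intro h1
    by_contra hR
    have h2 := inter_card h hR
    rw [← h1, Finset.inter_self, card_supp h ψ] at h2
    omega
  · intro hR
    rw [supp, supp, eq_of_R h hR]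

/-- The trichotomy for a third member of the family. -/
theorem trichotomy {ψ₀ φ₀ : Φ} (hR : ¬ R ψ₀ φ₀) {t₁ t₂ b b' : I} (ht : t₁ ≠ t₂)
    (hψ₀ : supp i₀ c ψ₀ = {t₁, t₂, b}) (hφ₀ : supp i₀ c φ₀ = {t₁, t₂, b'})
    (hb : b ≠ t₁ ∧ b ≠ t₂) (hb' : b' ≠ t₁ ∧ b' ≠ t₂) (hbb : b ≠ b') (ψ : Φ) :
    (t₁ ∈ supp i₀ c ψ ∧ t₂ ∈ supp i₀ c ψ) ∨ supp i₀ c ψ = {t₂, b, b'} ∨ supp i₀ c ψ = {t₁, b, b'} := by
  have hcard := card_supp h ψ
  have key : ∀ {a e f : I} {φ : Φ}, supp i₀ c φ = {a, e, f} → a ≠ e → a ≠ f → e ≠ f → a ∉ supp i₀ c ψ →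
      e ∈ supp i₀ c ψ ∧ f ∈ supp i₀ c ψ := by
    intro a e f φ hφ hae haf hef ha
    have hneR : ¬ R ψ φ := by
      intro hr
      rw [← (supp_eq_iff h).2 hr] at hφ
      apply ha
      rw [hφ]
      simp
    have h2 := inter_card h hneR
    rw [hφ] at h2
    by_contra hcon
    have h3 : (supp i₀ c ψ ∩ {a, e, f}) ⊆ ({e, f} : Finset I).filter (fun x => x ∈ supp i₀ c ψ) := by
      intro x hx
      obtain ⟨hx1, hx2⟩ := Finset.mem_inter.1 hx
      simp only [Finset.mem_insert, Finset.mem_singleton] at hx2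
      rcases hx2 with rfl | rfl | rfl
      · exact absurd hx1 ha
      · simp [hx1]
      · simp [hx1]
    have h4 := Finset.card_le_card h3
    rw [h2] at h4
    have h5 : (({e, f} : Finset I).filter (fun x => x ∈ supp i₀ c ψ)).card < 2 := by
      have h6 : ({e, f} : Finset I).filter (fun x => x ∈ supp i₀ c ψ) ⊂ {e, f} := by
        refine Finset.ssubset_iff_subset_ne.2 ⟨Finset.filter_subset _ _, fun h7 => hcon ?_⟩
        have h8 : e ∈ ({e, f} : Finset I).filter (fun x => x ∈ supp i₀ c ψ) := by rw [h7]; simp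
        have h9 : f ∈ ({e, f} : Finset I).filter (fun x => x ∈ supp i₀ c ψ) := by rw [h7]; simp
        exact ⟨(Finset.mem_filter.1 h8).2, (Finset.mem_filter.1 h9).2⟩
      have h7 := Finset.card_lt_card h6
      rwa [Finset.card_pair hef] at h7
    omega
  by_cases h1 : t₁ ∈ supp i₀ c ψ
  · by_cases h2 : t₂ ∈ supp i₀ c ψ
    · exact Or.inl ⟨h1, h2⟩
    · right; right
      have h3 := key (a := t₂) (e := t₁) (f := b) (φ := ψ₀) (by rw [hψ₀]; ext x; simp; tauto) ht.symm hb.2.symm hb.1.symm h2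
      have h4 := key (a := t₂) (e := t₁) (f := b') (φ := φ₀) (by rw [hφ₀]; ext x; simp; tauto) ht.symm hb'.2.symm hb'.1.symm h2
      symm
      apply Finset.eq_of_subset_of_card_le
      · intro x hx
        simp only [Finset.mem_insert, Finset.mem_singleton] at hx
        rcases hx with rfl | rfl | rfl
        · exact h1
        · exact h3.2
        · exact h4.2
      · rw [hcard, Finset.card_eq_three.2 ⟨t₁, b, b', hb.1.symm, hb'.1.symm, hbb, rfl⟩]
  · right; left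
    have h3 := key (a := t₁) (e := t₂) (f := b) (φ := ψ₀) hψ₀ ht hb.1.symm hb.2.symm h1
    have h4 := key (a := t₁) (e := t₂) (f := b') (φ := φ₀) hφ₀ ht hb'.1.symm hb'.2.symm h1
    symm
    apply Finset.eq_of_subset_of_card_le
    · intro x hx
      simp only [Finset.mem_insert, Finset.mem_singleton] at hx
      rcases hx with rfl | rfl | rfl
      · exact h3.1
      · exact h3.2
      · exact h4.2
    · rw [hcard, Finset.card_eq_three.2 ⟨t₂, b, b', hb.2.symm, hb'.2.symm, hbb, rfl⟩]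

/-- The degree equation on the support. -/
theorem sum_deg_supp (ψ : Φ) : ∑ i ∈ supp i₀ c ψ, c ψ i * d i = 1 := by
  have h1 := h.hdeg ψ
  rw [sum_eq_supp (i₀ := i₀) (c := c) ψ (fun i => c ψ i * d i) (fun i hi => by simp [hi]), h.hc0, h.hd0] at h1
  linarith

/-- The set of supports has cardinality one third of the index set. -/
theorem card_eq_three_mul (hclass : ∀ ψ : Φ, (open Classical in (Finset.univ.filter (R ψ)).card) = 3) :
    Fintype.card Φ = 3 * (open Classical in (Finset.univ.image (supp i₀ c)).card) := by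
  classical
  rw [← Finset.card_univ, Finset.card_eq_sum_card_image (supp i₀ c) Finset.univ]
  have h1 : ∀ A ∈ Finset.univ.image (supp i₀ c), (Finset.univ.filter (fun x => supp i₀ c x = A)).card = 3 := by
    intro A hA
    obtain ⟨ψ, -, rfl⟩ := Finset.mem_image.1 hA
    rw [← hclass ψ]
    congr 1
    ext φ
    simp only [Finset.mem_filter, Finset.mem_univ, true_and]
    rw [eq_comm, supp_eq_iff h]
  rw [Finset.sum_congr rfl h1]
  simp [mul_comm]

/-- **The sunflower**: all supports share two elements. -/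
theorem exists_core (hclass : ∀ ψ : Φ, (open Classical in (Finset.univ.filter (R ψ)).card) = 3)
    (hcard : Fintype.card Φ ≠ 9) {ψ₀ φ₀ : Φ} (hR : ¬ R ψ₀ φ₀) :
    ∃ t₁ t₂ : I, t₁ ≠ t₂ ∧ ∀ ψ, t₁ ∈ supp i₀ c ψ ∧ t₂ ∈ supp i₀ c ψ := by
  classical
  have hic := inter_card h hR
  obtain ⟨t₁, t₂, ht, hT⟩ := Finset.card_eq_two.1 hic
  have ht₁ : t₁ ∈ supp i₀ c ψ₀ ∧ t₁ ∈ supp i₀ c φ₀ := by
    have : t₁ ∈ supp i₀ c ψ₀ ∩ supp i₀ c φ₀ := by rw [hT]; simp
    exact Finset.mem_inter.1 this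
  have ht₂ : t₂ ∈ supp i₀ c ψ₀ ∧ t₂ ∈ supp i₀ c φ₀ := by
    have : t₂ ∈ supp i₀ c ψ₀ ∩ supp i₀ c φ₀ := by rw [hT]; simp
    exact Finset.mem_inter.1 this
  have third : ∀ ψ : Φ, t₁ ∈ supp i₀ c ψ → t₂ ∈ supp i₀ c ψ → ∃ z, z ≠ t₁ ∧ z ≠ t₂ ∧ supp i₀ c ψ = {t₁, t₂, z} := by
    intro ψ h1 h2
    have h3 : (((supp i₀ c ψ).erase t₁).erase t₂).card = 1 := by
      rw [Finset.card_erase_of_mem (Finset.mem_erase.2 ⟨ht.symm, h2⟩), Finset.card_erase_of_mem h1, card_supp h]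
    obtain ⟨z, hz⟩ := Finset.card_eq_one.1 h3
    have hz' : z ∈ ((supp i₀ c ψ).erase t₁).erase t₂ := by rw [hz]; simp
    obtain ⟨hz2, hz1⟩ := Finset.mem_erase.1 hz'
    obtain ⟨hz1', hz3⟩ := Finset.mem_erase.1 hz1
    refine ⟨z, hz1', hz2, ?_⟩
    apply Finset.eq_of_subset_of_card_le
    · intro x hx
      by_cases hx1 : x = t₁
      · simp [hx1]
      by_cases hx2 : x = t₂
      · simp [hx2]
      have : x ∈ ((supp i₀ c ψ).erase t₁).erase t₂ :=
        Finset.mem_erase.2 ⟨hx2, Finset.mem_erase.2 ⟨hx1, hx⟩⟩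
      rw [hz] at this
      simp [Finset.mem_singleton.1 this]
    · rw [card_supp h, Finset.card_eq_three.2 ⟨t₁, t₂, z, ht, hz1'.symm, hz2.symm, rfl⟩]
  obtain ⟨b, hb1, hb2, hψ₀⟩ := third ψ₀ ht₁.1 ht₂.1
  obtain ⟨b', hb1', hb2', hφ₀⟩ := third φ₀ ht₁.2 ht₂.2
  have hbb : b ≠ b' := by
    rintro rfl
    exact hR ((supp_eq_iff h).1 (hψ₀.trans hφ₀.symm))
  have htri := trichotomy h hR ht hψ₀ hφ₀ ⟨hb1, hb2⟩ ⟨hb1', hb2'⟩ hbb
  by_cases hall : ∀ ψ, t₁ ∈ supp i₀ c ψ ∧ t₂ ∈ supp i₀ c ψ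
  · exact ⟨t₁, t₂, ht, hall⟩
  exfalso
  push Not at hall
  -- the exceptional member
  obtain ⟨ψs, hψs⟩ := hall
  have hψs' : supp i₀ c ψs = {t₂, b, b'} ∨ supp i₀ c ψs = {t₁, b, b'} := by
    rcases htri ψs with h1 | h1
    · exact absurd h1.2 (hψs h1.1)
    · exact h1
  have hsub : ∀ ψ, supp i₀ c ψ = {t₁, t₂, b} ∨ supp i₀ c ψ = {t₁, t₂, b'} ∨ supp i₀ c ψ = {t₂, b, b'} ∨
      supp i₀ c ψ = {t₁, b, b'} := by
    intro ψ
    rcases htri ψ with h1 | h1 | h1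
    · obtain ⟨z, hz1, hz2, hz⟩ := third ψ h1.1 h1.2
      -- the third element is `b` or `b'`
      have hz' : z = b ∨ z = b' := by
        by_contra hne
        push Not at hne
        have hzs : z ∉ supp i₀ c ψs := by
          rcases hψs' with h2 | h2 <;> rw [h2] <;> simp [hz1, hz2, hne.1, hne.2]
        have h3 : ¬ R ψ ψs := by
          intro hr
          apply hzs
          rw [← (supp_eq_iff h).2 hr, hz]
          simp
        have h4 := inter_card h h3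
        rcases hψs' with h2 | h2
        · have h5 : supp i₀ c ψ ∩ supp i₀ c ψs ⊆ {t₂} := by
            intro x hx
            obtain ⟨hx1, hx2⟩ := Finset.mem_inter.1 hx
            rw [hz] at hx1
            rw [h2] at hx2
            simp only [Finset.mem_insert, Finset.mem_singleton] at hx1 hx2 ⊢
            rcases hx1 with rfl | rfl | rfl <;> rcases hx2 with h6 | h6 | h6 <;> first | exact h6 | skip
            all_goals first
              | exact absurd h6 ht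
              | exact absurd h6.symm hb1
              | exact absurd h6.symm hb1'
              | exact absurd h6 hne.1
              | exact absurd h6 hne.2
              | exact absurd h6 hz2
              | rfl
          have h6 := Finset.card_le_card h5
          simp at h6
          omega
        · have h5 : supp i₀ c ψ ∩ supp i₀ c ψs ⊆ {t₁} := by
            intro x hx
            obtain ⟨hx1, hx2⟩ := Finset.mem_inter.1 hx
            rw [hz] at hx1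
            rw [h2] at hx2
            simp only [Finset.mem_insert, Finset.mem_singleton] at hx1 hx2 ⊢
            rcases hx1 with rfl | rfl | rfl <;> rcases hx2 with h6 | h6 | h6 <;> first | exact h6 | skip
            all_goals first
              | exact absurd h6.symm ht
              | exact absurd h6.symm hb2
              | exact absurd h6.symm hb2'
              | exact absurd h6 hne.1
              | exact absurd h6 hne.2
              | exact absurd h6 hz1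
              | rfl
          have h6 := Finset.card_le_card h5
          simp at h6
          omega
      rcases hz' with rfl | rfl
      · exact Or.inl hz
      · exact Or.inr (Or.inl hz)
    · exact Or.inr (Or.inr (Or.inl h1))
    · exact Or.inr (Or.inr (Or.inr h1))
  -- distinctness of the four sets
  have hA₁₂ : ({t₁, t₂, b} : Finset I) ≠ {t₁, t₂, b'} := by
    intro h1
    have h2 : b ∈ ({t₁, t₂, b'} : Finset I) := by rw [← h1]; simp
    simp [hb1, hb2, hbb] at h2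
  have hA₁₃ : ({t₁, t₂, b} : Finset I) ≠ {t₂, b, b'} := by
    intro h1
    have h2 : t₁ ∈ ({t₂, b, b'} : Finset I) := by rw [← h1]; simp
    simp [ht, hb1.symm, hb1'.symm] at h2
  have hA₁₄ : ({t₁, t₂, b} : Finset I) ≠ {t₁, b, b'} := by
    intro h1
    have h2 : t₂ ∈ ({t₁, b, b'} : Finset I) := by rw [← h1]; simp
    simp [ht.symm, hb2.symm, hb2'.symm] at h2
  have hA₂₃ : ({t₁, t₂, b'} : Finset I) ≠ {t₂, b, b'} := by
    intro h1
    have h2 : t₁ ∈ ({t₂, b, b'} : Finset I) := by rw [← h1]; simp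
    simp [ht, hb1.symm, hb1'.symm] at h2
  have hA₂₄ : ({t₁, t₂, b'} : Finset I) ≠ {t₁, b, b'} := by
    intro h1
    have h2 : t₂ ∈ ({t₁, b, b'} : Finset I) := by rw [← h1]; simp
    simp [ht.symm, hb2.symm, hb2'.symm] at h2
  have hA₃₄ : ({t₂, b, b'} : Finset I) ≠ {t₁, b, b'} := by
    intro h1
    have h2 : t₂ ∈ ({t₁, b, b'} : Finset I) := by rw [← h1]; simp
    simp [ht.symm, hb2.symm, hb2'.symm] at h2
  have hcount := card_eq_three_mul h hclass
  -- both of the last two sets occur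
  have hboth : (∃ ψ, supp i₀ c ψ = {t₂, b, b'}) ∧ ∃ ψ, supp i₀ c ψ = {t₁, b, b'} := by
    by_contra hno
    have hno3 : (Finset.univ.image (supp i₀ c)).card = 3 := by
      apply le_antisymm
      · rcases hψs' with h2 | h2
        · have h3 : ¬ ∃ ψ, supp i₀ c ψ = {t₁, b, b'} := fun h4 => hno ⟨⟨ψs, h2⟩, h4⟩
          have h4 : Finset.univ.image (supp i₀ c) ⊆ ({{t₁, t₂, b}, {t₁, t₂, b'}, {t₂, b, b'}} : Finset (Finset I)) := by
            intro A hA
            obtain ⟨ψ, -, rfl⟩ := Finset.mem_image.1 hA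
            rcases hsub ψ with h5 | h5 | h5 | h5
            · simp [h5]
            · simp [h5]
            · simp [h5]
            · exact absurd ⟨ψ, h5⟩ h3
          exact (Finset.card_le_card h4).trans Finset.card_le_three
        · have h3 : ¬ ∃ ψ, supp i₀ c ψ = {t₂, b, b'} := fun h4 => hno ⟨h4, ⟨ψs, h2⟩⟩
          have h4 : Finset.univ.image (supp i₀ c) ⊆ ({{t₁, t₂, b}, {t₁, t₂, b'}, {t₁, b, b'}} : Finset (Finset I)) := by
            intro A hA
            obtain ⟨ψ, -, rfl⟩ := Finset.mem_image.1 hA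
            rcases hsub ψ with h5 | h5 | h5 | h5
            · simp [h5]
            · simp [h5]
            · exact absurd ⟨ψ, h5⟩ h3
            · simp [h5]
          exact (Finset.card_le_card h4).trans Finset.card_le_three
      · rcases hψs' with h2 | h2
        · have h4 : ({{t₁, t₂, b}, {t₁, t₂, b'}, {t₂, b, b'}} : Finset (Finset I)) ⊆ Finset.univ.image (supp i₀ c) := by
            intro A hA
            simp only [Finset.mem_insert, Finset.mem_singleton] at hA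
            rcases hA with rfl | rfl | rfl
            · exact Finset.mem_image.2 ⟨ψ₀, Finset.mem_univ _, hψ₀⟩
            · exact Finset.mem_image.2 ⟨φ₀, Finset.mem_univ _, hφ₀⟩
            · exact Finset.mem_image.2 ⟨ψs, Finset.mem_univ _, h2⟩
          have h5 := Finset.card_le_card h4
          rwa [Finset.card_eq_three.2 ⟨_, _, _, hA₁₂, hA₁₃, hA₂₃, rfl⟩] at h5
        · have h4 : ({{t₁, t₂, b}, {t₁, t₂, b'}, {t₁, b, b'}} : Finset (Finset I)) ⊆ Finset.univ.image (supp i₀ c) := by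
            intro A hA
            simp only [Finset.mem_insert, Finset.mem_singleton] at hA
            rcases hA with rfl | rfl | rfl
            · exact Finset.mem_image.2 ⟨ψ₀, Finset.mem_univ _, hψ₀⟩
            · exact Finset.mem_image.2 ⟨φ₀, Finset.mem_univ _, hφ₀⟩
            · exact Finset.mem_image.2 ⟨ψs, Finset.mem_univ _, h2⟩
          have h5 := Finset.card_le_card h4
          rwa [Finset.card_eq_three.2 ⟨_, _, _, hA₁₂, hA₁₄, hA₂₄, rfl⟩] at h5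
    rw [hno3] at hcount
    exact hcard hcount
  obtain ⟨⟨ψ₃, hψ₃⟩, ⟨ψ₄, hψ₄⟩⟩ := hboth
  -- the degree contradiction
  have hR' : ∀ {ψ φ : Φ} {A B : Finset I}, supp i₀ c ψ = A → supp i₀ c φ = B → A ≠ B → ¬ R ψ φ := by
    intro ψ φ A B h1 h2 h3 hr
    exact h3 (by rw [← h1, ← h2]; exact (supp_eq_iff h).2 hr)
  have e₁ := sum_deg_supp h ψ₀
  have e₂ := sum_deg_supp h φ₀
  have e₃ := sum_deg_supp h ψ₃
  have e₄ := sum_deg_supp h ψ₄
  rw [hψ₀, Finset.sum_insert (by simp [ht, hb1.symm]), Finset.sum_insert (by simp [hb2.symm]), Finset.sum_singleton] at e₁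
  rw [hφ₀, Finset.sum_insert (by simp [ht, hb1'.symm]), Finset.sum_insert (by simp [hb2'.symm]), Finset.sum_singleton] at e₂
  rw [hψ₃, Finset.sum_insert (by simp [hb2.symm, hb2'.symm]), Finset.sum_insert (by simp [hbb]), Finset.sum_singleton] at e₃
  rw [hψ₄, Finset.sum_insert (by simp [hb1.symm, hb1'.symm]), Finset.sum_insert (by simp [hbb]), Finset.sum_singleton] at e₄
  have s1 : c φ₀ t₁ = c ψ₀ t₁ := (inter_entry h hR (by rw [hψ₀]; simp) (by rw [hφ₀]; simp)).symm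
  have s2 : c φ₀ t₂ = c ψ₀ t₂ := (inter_entry h hR (by rw [hψ₀]; simp) (by rw [hφ₀]; simp)).symm
  have hR₃ := hR' hψ₀ hψ₃ hA₁₃
  have hR₄ := hR' hψ₀ hψ₄ hA₁₄
  have hR₂₃ := hR' hφ₀ hψ₃ hA₂₃
  have hR₂₄ := hR' hφ₀ hψ₄ hA₂₄
  have s3 : c ψ₃ t₂ = c ψ₀ t₂ := (inter_entry h hR₃ (by rw [hψ₀]; simp) (by rw [hψ₃]; simp)).symm
  have s4 : c ψ₃ b = c ψ₀ b := (inter_entry h hR₃ (by rw [hψ₀]; simp) (by rw [hψ₃]; simp)).symm
  have s5 : c ψ₃ b' = c φ₀ b' := (inter_entry h hR₂₃ (by rw [hφ₀]; simp) (by rw [hψ₃]; simp)).symm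
  have s6 : c ψ₄ t₁ = c ψ₀ t₁ := (inter_entry h hR₄ (by rw [hψ₀]; simp) (by rw [hψ₄]; simp)).symm
  have s7 : c ψ₄ b = c ψ₀ b := (inter_entry h hR₄ (by rw [hψ₀]; simp) (by rw [hψ₄]; simp)).symm
  have s8 : c ψ₄ b' = c φ₀ b' := (inter_entry h hR₂₄ (by rw [hφ₀]; simp) (by rw [hψ₄]; simp)).symm
  rw [s1, s2] at e₂
  rw [s3, s4, s5] at e₃
  rw [s6, s7, s8] at e₄
  omega

theorem common_entry (ψ φ : Φ) {i : I} (hi : i ∈ supp i₀ c ψ) (hi' : i ∈ supp i₀ c φ) : c ψ i = c φ i := by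
  classical
  by_cases hR : R ψ φ
  · rw [eq_of_R h hR]
  · exact inter_entry h hR hi hi'

/-- **The structure theorem**. -/
theorem structure_thm (hclass : ∀ ψ : Φ, (open Classical in (Finset.univ.filter (R ψ)).card) = 3)
    (hcard : Fintype.card Φ ≠ 9) {ψ₀ φ₀ : Φ} (hR : ¬ R ψ₀ φ₀) :
    ∃ (ξ₁ ξ₂ : I) (s₁ s₂ δ D : ℤ) (ζ : Φ → I),
      ξ₁ ≠ ξ₂ ∧ ξ₁ ≠ i₀ ∧ ξ₂ ≠ i₀ ∧ (s₁ = 1 ∨ s₁ = -1) ∧ (s₂ = 1 ∨ s₂ = -1) ∧ (δ = 1 ∨ δ = -1) ∧ 0 < D ∧
      (∀ ψ, c ψ ξ₁ = s₁ ∧ c ψ ξ₂ = s₂ ∧ c ψ (ζ ψ) = δ ∧ ζ ψ ≠ i₀ ∧ ζ ψ ≠ ξ₁ ∧ ζ ψ ≠ ξ₂ ∧ d (ζ ψ) = D ∧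
        ∀ i, i ≠ i₀ → i ≠ ξ₁ → i ≠ ξ₂ → i ≠ ζ ψ → c ψ i = 0) ∧
      (∀ ψ φ, ζ φ = ζ ψ ↔ R ψ φ) ∧ s₁ * d ξ₁ + s₂ * d ξ₂ + δ * D = 1 := by
  classical
  obtain ⟨t₁, t₂, ht, hall⟩ := exists_core h hclass hcard hR
  have third : ∀ ψ : Φ, ∃ z, z ≠ t₁ ∧ z ≠ t₂ ∧ supp i₀ c ψ = {t₁, t₂, z} := by
    intro ψ
    obtain ⟨h1, h2⟩ := hall ψ
    have h3 : (((supp i₀ c ψ).erase t₁).erase t₂).card = 1 := by
      rw [Finset.card_erase_of_mem (Finset.mem_erase.2 ⟨ht.symm, h2⟩), Finset.card_erase_of_mem h1, card_supp h]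
    obtain ⟨z, hz⟩ := Finset.card_eq_one.1 h3
    have hz' : z ∈ ((supp i₀ c ψ).erase t₁).erase t₂ := by rw [hz]; simp
    obtain ⟨hz2, hz1⟩ := Finset.mem_erase.1 hz'
    obtain ⟨hz1', hz3⟩ := Finset.mem_erase.1 hz1
    refine ⟨z, hz1', hz2, ?_⟩
    apply Finset.eq_of_subset_of_card_le
    · intro x hx
      by_cases hx1 : x = t₁
      · simp [hx1]
      by_cases hx2 : x = t₂
      · simp [hx2]
      have : x ∈ ((supp i₀ c ψ).erase t₁).erase t₂ :=
        Finset.mem_erase.2 ⟨hx2, Finset.mem_erase.2 ⟨hx1, hx⟩⟩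
      rw [hz] at this
      simp [Finset.mem_singleton.1 this]
    · rw [card_supp h, Finset.card_eq_three.2 ⟨t₁, t₂, z, ht, hz1'.symm, hz2.symm, rfl⟩]
  choose ζ hζ1 hζ2 hζ using third
  have hmemz : ∀ ψ, ζ ψ ∈ supp i₀ c ψ := fun ψ => by rw [hζ]; simp
  have hs₁ : ∀ ψ, c ψ t₁ = c ψ₀ t₁ := fun ψ => common_entry h ψ ψ₀ (hall ψ).1 (hall ψ₀).1
  have hs₂ : ∀ ψ, c ψ t₂ = c ψ₀ t₂ := fun ψ => common_entry h ψ ψ₀ (hall ψ).2 (hall ψ₀).2
  have hdg : ∀ ψ, c ψ (ζ ψ) * d (ζ ψ) = 1 - c ψ₀ t₁ * d t₁ - c ψ₀ t₂ * d t₂ := by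
    intro ψ
    have h1 := sum_deg_supp h ψ
    rw [hζ, Finset.sum_insert (by simp [ht, (hζ1 ψ).symm]), Finset.sum_insert (by simp [(hζ2 ψ).symm]),
      Finset.sum_singleton, hs₁, hs₂] at h1
    linarith
  set D' : ℤ := 1 - c ψ₀ t₁ * d t₁ - c ψ₀ t₂ * d t₂ with hD'
  have hval : ∀ ψ, (c ψ (ζ ψ) = 1 ∧ D' = d (ζ ψ)) ∨ (c ψ (ζ ψ) = -1 ∧ D' = - d (ζ ψ)) := by
    intro ψ
    rcases entry_eq h ψ (hmemz ψ) with h1 | h1
    · left
      refine ⟨h1, ?_⟩
      rw [← hdg ψ, h1, one_mul]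
    · right
      refine ⟨h1, ?_⟩
      rw [← hdg ψ, h1]
      ring
  have hD0 : D' ≠ 0 := by
    rcases hval ψ₀ with h1 | h1
    · rw [h1.2]
      exact (h.hd _).ne'
    · rw [h1.2]
      exact neg_ne_zero.2 (h.hd _).ne'
  refine ⟨t₁, t₂, c ψ₀ t₁, c ψ₀ t₂, if 0 < D' then 1 else -1, |D'|, ζ, ht, (mem_supp.1 (hall ψ₀).1).1,
    (mem_supp.1 (hall ψ₀).2).1, entry_eq h ψ₀ (hall ψ₀).1, entry_eq h ψ₀ (hall ψ₀).2, ?_, abs_pos.2 hD0, ?_, ?_, ?_⟩
  · split_ifs
    · exact Or.inl rfl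
    · exact Or.inr rfl
  · intro ψ
    refine ⟨hs₁ ψ, hs₂ ψ, ?_, (mem_supp.1 (hmemz ψ)).1, hζ1 ψ, hζ2 ψ, ?_, ?_⟩
    · have hdp := h.hd (ζ ψ)
      rcases hval ψ with h1 | h1
      · rw [h1.1, if_pos (by rw [h1.2]; exact hdp)]
      · rw [h1.1, if_neg (by rw [h1.2]; omega)]
    · have hdp := h.hd (ζ ψ)
      rcases hval ψ with h1 | h1
      · rw [h1.2, abs_of_pos hdp]
      · rw [h1.2, abs_neg, abs_of_pos hdp]
    · intro i h1 h2 h3 h4
      by_contra h5
      have h6 : i ∈ supp i₀ c ψ := mem_supp.2 ⟨h1, h5⟩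
      rw [hζ] at h6
      simp only [Finset.mem_insert, Finset.mem_singleton] at h6
      tauto
  · intro ψ φ
    constructor
    · intro h1
      apply (supp_eq_iff h).1
      rw [hζ ψ, hζ φ, h1]
    · intro h1
      have h2 := (supp_eq_iff h).2 h1
      rw [hζ ψ, hζ φ] at h2
      have h3 : ζ φ ∈ ({t₁, t₂, ζ ψ} : Finset I) := by rw [h2]; simp
      simp only [Finset.mem_insert, Finset.mem_singleton] at h3
      rcases h3 with h3 | h3 | h3
      · exact absurd h3 (hζ1 φ)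
      · exact absurd h3 (hζ2 φ)
      · exact h3
  · have hsgn : (if 0 < D' then (1 : ℤ) else -1) * |D'| = D' := by
      split_ifs with h1
      · rw [one_mul, abs_of_pos h1]
      · rw [abs_of_nonpos (not_lt.1 h1)]
        ring
    rw [hsgn, hD']
    ring

end

end Cfsg.Agent.Lib.Exc3
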