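import Mathlib
import Cfsg.Agent.Lib.Exc3.Fourier
import Cfsg.Agent.Lib.Transfer.Comp
import Cfsg.Agent.Lib.Techniques.Fusion
import Cfsg.Agent.Lib.Core.Basic

/-!
# The local setting: an abelian Sylow subgroup with a free action of `N/C` of order three.
-/

set_option autoImplicit false
set_option linter.unusedSectionVars false
set_option linter.unusedSimpArgs false
set_option linter.unusedVariables false
set_option linter.style.haveILetI false
set_option linter.unnecessarySimpa false

open Cfsg

namespace Cfsg.Agent.Lib.Exc3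

open Cfsg.Agent.Lib.Transfer Cfsg.Agent.Lib.Techniques

variable {G : Type*} [Group G] [Finite G] {p : ℕ} [hp : Fact p.Prime]

/-- The properties of the pair `(P, W)` used in the sequel. -/
structure ExcSetup (P : Sylow p G) (W : Subgroup (MulAut ↥(P : Subgroup G))) : Prop where
  hab : ∀ a b : ↥(P : Subgroup G), a * b = b * a
  hW3 : Nat.card W = 3
  hfree : FreeOn W
  hact₁ : ∀ n ∈ Subgroup.normalizer ((P : Subgroup G) : Set G), ∃ τ ∈ W, ∀ w : ↥(P : Subgroup G), ((τ w : ↥(P : Subgroup G)) : G) = n * w * n⁻¹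
  hact₂ : ∀ τ ∈ W, ∃ n ∈ Subgroup.normalizer ((P : Subgroup G) : Set G), ∀ w : ↥(P : Subgroup G), ((τ w : ↥(P : Subgroup G)) : G) = n * w * n⁻¹
  hfus : ∀ y y' : ↥(P : Subgroup G), IsConj (y : G) (y' : G) → ∃ τ ∈ W, τ y = y'
  hnil : ∀ y : ↥(P : Subgroup G), y ≠ 1 → ∃ (K : Subgroup (Subgroup.centralizer ({(y : G)} : Set G))) (_ : K.Normal),
    (Nat.card K).Coprime p ∧ IsPGroup p (Subgroup.centralizer ({(y : G)} : Set G) ⧸ K) ∧
      Nat.card K * Nat.card ↥(P : Subgroup G) = Nat.card (Subgroup.centralizer ({(y : G)} : Set G))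

theorem exists_excSetup (P : Sylow p G) (hab : IsMulCommutative P)
    (hCN : (Subgroup.centralizer ((P : Subgroup G) : Set G)).relIndex (Subgroup.normalizer ((P : Subgroup G) : Set G)) = 3)
    (hfrob : ∀ y : G, y ∈ (P : Subgroup G) → y ≠ 1 → Subgroup.centralizer ({y} : Set G) ⊓ Subgroup.normalizer ((P : Subgroup G) : Set G) = Subgroup.centralizer ((P : Subgroup G) : Set G)) :
    ∃ W : Subgroup (MulAut ↥(P : Subgroup G)), ExcSetup P W := by
  classical
  set Q : Subgroup G := (P : Subgroup G) with hQ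
  have hcomm : ∀ a b : Q, a * b = b * a := by
    intro a b
    exact hab.is_comm.comm a b
  let f := Q.normalizerMonoidHom
  have hf : ∀ (n : Subgroup.normalizer (Q : Set G)) (w : Q), ((f n w : Q) : G) = n * w * (n : G)⁻¹ := fun n w => rfl
  have hker : ∀ n : Subgroup.normalizer (Q : Set G), (n : G) ∈ Subgroup.centralizer (Q : Set G) → f n = 1 := by
    intro n hn
    have : n ∈ f.ker := by
      rw [Subgroup.normalizerMonoidHom_ker]
      exact hn
    exact this
  refine ⟨f.range, ⟨hcomm, ?_, ?_, ?_, ?_, ?_, ?_⟩⟩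
  · rw [← Subgroup.index_ker, Subgroup.normalizerMonoidHom_ker]
    exact hCN
  · rintro _ ⟨n, rfl⟩ hτ y hy hfix
    apply hτ
    apply hker
    have hy' : (y : G) ≠ 1 := fun h => hy (Subtype.ext h)
    rw [← hfrob y y.2 hy']
    refine ⟨?_, n.2⟩
    apply Subgroup.mem_centralizer_singleton_iff.2
    have h1 := congrArg (Subtype.val) hfix
    rw [hf] at h1
    exact mul_inv_eq_iff_eq_mul.1 h1
  · intro n hn
    exact ⟨f ⟨n, hn⟩, ⟨_, rfl⟩, fun w => rfl⟩
  · rintro _ ⟨n, rfl⟩
    exact ⟨n, n.2, fun w => rfl⟩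
  · intro y y' hc
    have hSy : SylowIn p Q ⊤ := by
      refine ⟨le_top, P.isPGroup', ?_⟩
      rw [Subgroup.relIndex_top_right]
      exact P.not_dvd_index
    obtain ⟨g, hg⟩ := isConj_iff.1 hc
    obtain ⟨n, hn, hny⟩ := burnside_fusion hSy (x := (y : G)) (y := (y' : G)) (g := g)
      (fun z hz => congrArg Subtype.val (hcomm ⟨z, hz⟩ y))
      (fun z hz => congrArg Subtype.val (hcomm ⟨z, hz⟩ y')) hg
    refine ⟨f ⟨n, hn⟩, ⟨_, rfl⟩, Subtype.ext ?_⟩
    rw [hf]
    exact hny
  · intro y hy
    have hy' : (y : G) ≠ 1 := fun h => hy (Subtype.ext h)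
    set D : Subgroup G := Subgroup.centralizer ({(y : G)} : Set G) with hD
    have hQD : Q ≤ D := by
      intro z hz
      rw [hD, Subgroup.mem_centralizer_singleton_iff]
      exact congrArg Subtype.val (hcomm ⟨z, hz⟩ y)
    let S : Sylow p D := P.subtype hQD
    have hS : ∀ z : D, z ∈ (S : Subgroup D) ↔ (z : G) ∈ Q := fun z => Subgroup.mem_subgroupOf
    have hbur : Subgroup.normalizer ((S : Subgroup D) : Set D) ≤ Subgroup.centralizer ((S : Subgroup D) : Set D) := by
      intro g hg
      have hgN : (g : G) ∈ Subgroup.normalizer (Q : Set G) := by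
        rw [Subgroup.mem_normalizer_iff]
        intro w
        constructor
        · intro hw
          have h1 : (⟨w, hQD hw⟩ : D) ∈ (S : Subgroup D) := (hS _).2 hw
          have h2 := (Subgroup.mem_normalizer_iff.1 hg _).1 h1
          exact (hS _).1 h2
        · intro hw
          have hwD : w ∈ D := by
            have h1 : (g : G) * w * (g : G)⁻¹ ∈ D := hQD hw
            have h2 : w = (g : G)⁻¹ * ((g : G) * w * (g : G)⁻¹) * (g : G) := by group
            rw [h2]
            exact D.mul_mem (D.mul_mem (D.inv_mem g.2) h1) g.2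
          have h1 : g * (⟨w, hwD⟩ : D) * g⁻¹ ∈ (S : Subgroup D) := (hS _).2 hw
          have h2 := (Subgroup.mem_normalizer_iff.1 hg _).2 h1
          exact (hS ⟨w, hwD⟩).1 h2
      have h1 : (g : G) ∈ Subgroup.centralizer (Q : Set G) := by
        rw [← hfrob y y.2 hy']
        exact ⟨g.2, hgN⟩
      rw [Subgroup.mem_centralizer_iff]
      intro z hz
      apply Subtype.ext
      have h2 := (hS z).1 hz
      exact Subgroup.mem_centralizer_iff.1 h1 _ h2
    obtain ⟨S', K, hK, hc⟩ := hasNormalPComplement_of_burnside S hbur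
    refine ⟨K, hK, complement_card_coprime hc, complement_quotient_isPGroup hc, ?_⟩
    have h1 := hc.card_mul_card
    have h2 : Nat.card (S' : Subgroup D) = Nat.card (S : Subgroup D) := by
      exact Nat.card_congr (Sylow.equiv S' S).toEquiv
    have h3 : Nat.card (S : Subgroup D) = Nat.card Q := by
      exact Nat.card_congr (Subgroup.subgroupOfEquivOfLe hQD).toEquiv
    rw [h2, h3] at h1
    exact h1

end Cfsg.Agent.Lib.Exc3
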