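import Mathlib
import Cfsg.Agent.Lib.Exc3.Setup
import Cfsg.Agent.Lib.Block.Principal
import Cfsg.Agent.Lib.BPair.Proj
import Cfsg.Agent.Lib.Block.DefectZero

/-!
# The section functions and the extension map
-/

set_option autoImplicit false
set_option linter.unusedSectionVars false
set_option linter.unusedSimpArgs false
set_option linter.unusedVariables false
set_option linter.style.haveILetI false
set_option linter.unnecessarySimpa false

open scoped ComplexConjugate
open Cfsg

namespace Cfsg.Agent.Lib.Exc3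

open Cfsg.Agent.Lib.Char Cfsg.Agent.Lib.Block Cfsg.Agent.Lib.BPair

section Gy

variable {G : Type*} [Group G] [Fintype G] {p : ℕ} [hp : Fact p.Prime]

/-- The indicator of the `p`-regular elements. -/
noncomputable def w0 (p : ℕ) (y : G) : Subgroup.centralizer ({y} : Set G) → ℂ :=
  pRegularPart p (fun _ => 1)

theorem w0_sing {y : G} {c : Subgroup.centralizer ({y} : Set G)} (hc : p ∣ orderOf c) : w0 p y c = 0 :=
  pRegularPart_of_sing hc

theorem w0_reg {y : G} {c : Subgroup.centralizer ({y} : Set G)} (hc : ¬ p ∣ orderOf c) : w0 p y c = 1 :=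
  pRegularPart_of_reg hc

theorem w0_cl (y : G) [Fintype (Subgroup.centralizer ({y} : Set G))] : IsClassFunction _ (w0 p y) :=
  isClassFunction_pRegularPart (fun _ _ => rfl)

/-- The section indicator. -/
noncomputable def gy (p : ℕ) (y : G) : G → ℂ := glue y (w0 p y)

theorem gy_cl (y : G) : IsClassFunction G (gy p y) := glue_isClassFunction _ _

theorem gy_self {y : G} (hy : ∃ k, orderOf y = p ^ k) (c : Subgroup.centralizer ({y} : Set G)) (hc : ¬ p ∣ orderOf c) :
    gy p y (y * c) = 1 := by
  classical
  haveI : Fintype (Subgroup.centralizer ({y} : Set G)) := Fintype.ofFinite _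
  unfold gy
  rw [glue_self hy (fun c hc => w0_sing hc) (w0_cl y) c hc, w0_reg hc]

theorem gy_conj {y y₀ : G} (hy : ∃ k, orderOf y = p ^ k) (hc : IsConj y₀ y) (c : Subgroup.centralizer ({y₀} : Set G))
    (hcr : ¬ p ∣ orderOf c) : gy p y (y₀ * c) = 1 := by
  obtain ⟨a, ha⟩ := isConj_iff.1 hc
  have hmem : a * (c : G) * a⁻¹ ∈ Subgroup.centralizer ({y} : Set G) := by
    rw [Subgroup.mem_centralizer_singleton_iff]
    have h1 : (c : G) * y₀ = y₀ * c := Subgroup.mem_centralizer_singleton_iff.1 c.2
    rw [← ha]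
    calc a * (c : G) * a⁻¹ * (a * y₀ * a⁻¹) = a * ((c : G) * y₀) * a⁻¹ := by group
      _ = a * (y₀ * c) * a⁻¹ := by rw [h1]
      _ = _ := by group
  have hord : ¬ p ∣ orderOf (⟨a * (c : G) * a⁻¹, hmem⟩ : Subgroup.centralizer ({y} : Set G)) := by
    rw [Subgroup.orderOf_mk, orderOf_conj]
    rwa [Subgroup.orderOf_coe]
  have h2 := gy_self hy ⟨a * (c : G) * a⁻¹, hmem⟩ hord
  have h3 : a * (y₀ * (c : G)) * a⁻¹ = y * (a * (c : G) * a⁻¹) := by
    rw [← ha]
    group
  calc gy p y (y₀ * c) = gy p y (a * (y₀ * c) * a⁻¹) := (gy_cl y _ a).symm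
    _ = gy p y (y * (a * (c : G) * a⁻¹)) := by rw [h3]
    _ = 1 := h2

theorem gy_not_conj {y y₀ : G} (hy : ∃ k, orderOf y = p ^ k) (hy₀ : ∃ k, orderOf y₀ = p ^ k) (hc : ¬ IsConj y₀ y)
    (c : Subgroup.centralizer ({y₀} : Set G)) (hcr : ¬ p ∣ orderOf c) : gy p y (y₀ * c) = 0 :=
  glue_of_not_conj hy hy₀ hc (fun c hc => w0_sing hc) c hcr

variable [∀ H : Subgroup G, Fintype H]

theorem classInner_gy (y : G) {f : G → ℂ} (hf : IsClassFunction G f) :
    classInner (gy p y) f = (Nat.card (Subgroup.centralizer ({y} : Set G)) : ℂ)⁻¹ *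
      ∑ c : Subgroup.centralizer ({y} : Set G), w0 p y c * conj (f (y * c)) := by
  unfold gy glue
  rw [frobenius_reciprocity _ _ _ hf]
  simp only [classInner_def]
  congr 1
  symm
  refine Fintype.sum_equiv (Equiv.mulLeft (⟨y, mem_centralizer_self y⟩ : Subgroup.centralizer ({y} : Set G))) _ _ fun c => ?_
  simp

end Gy

section Principal

variable {G : Type*} [Group G] [Fintype G] {p : ℕ} [hp : Fact p.Prime] {M : Ideal AlgInt}
  [∀ H : Subgroup G, Fintype H]

theorem isInduced_principal (hM : IsPModular p M) {y : G} (hy : ∃ k, orderOf y = p ^ k) :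
    IsInducedBlock M (Subgroup.centralizer ({y} : Set G)) (principalBlock M (Subgroup.centralizer ({y} : Set G)))
      (principalBlock M G) := by
  have := isPModular_isPrime hM
  have hPg := isPGroup_zpowers_of_orderOf (p := p) hy
  have hPH : Subgroup.zpowers y ≤ (Subgroup.centralizer ({y} : Set G)) := zpowers_le_centralizer y
  have hCH : Subgroup.centralizer ((Subgroup.zpowers y : Subgroup G) : Set G) ≤ (Subgroup.centralizer ({y} : Set G)) :=
    (centralizer_zpowers_eq y).le
  have hHN := centralizer_le_normalizer_zpowers y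
  have hb0 : IsPBlock M (principalBlock M (Subgroup.centralizer ({y} : Set G))) :=
    isPBlock_blockOf (M := M) (oneIrr (Subgroup.centralizer ({y} : Set G)))
  have hdef : InducedBlockDefined M (Subgroup.centralizer ({y} : Set G))
      (principalBlock M (Subgroup.centralizer ({y} : Set G))) :=
    inducedBlockDefined_of_normalizer hM hPg hPH hCH hHN hb0
  exact (third_main hM (Subgroup.centralizer ({y} : Set G))
    (principalBlock M (Subgroup.centralizer ({y} : Set G))) hdef).2 rfl

theorem classInner_gy_of_notMem (hM : IsPModular p M) {y : G} (hy : ∃ k, orderOf y = p ^ k)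
    {χ : IrrCharacter G} (hχ : χ ∉ principalBlock M G) : classInner (gy p y) (χ : G → ℂ) = 0 := by
  have := isPModular_isPrime hM
  have he : IsPBlock M (principalBlock M (Subgroup.centralizer ({y} : Set G))) :=
    isPBlock_blockOf (M := M) (oneIrr (Subgroup.centralizer ({y} : Set G)))
  have hw : w0 p y ∈ regSpan p (principalBlock M (Subgroup.centralizer ({y} : Set G))) := by
    have hone : oneIrr (Subgroup.centralizer ({y} : Set G)) ∈ principalBlock M (Subgroup.centralizer ({y} : Set G)) :=
      mem_blockOf_self (oneIrr _)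
    have h0 : w0 p y = pRegularPart p ((oneIrr (Subgroup.centralizer ({y} : Set G)) : IrrCharacter _) : Subgroup.centralizer ({y} : Set G) → ℂ) := by
      unfold w0
      rw [oneIrr_coe]
    rw [h0]
    exact Submodule.subset_span (Set.mem_image_of_mem _ hone)
  have h1 := classInner_secF hM he hw (IsCharacter.isClassFunction (IsIrrCharacter.isCharacter χ.2))
  rw [secF_eq_zero_of_notMem hM hy (isInduced_principal hM hy) hχ] at h1
  rw [gy, ← h1]
  simp [classInner_def]

end Principal

end Cfsg.Agent.Lib.Exc3
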