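import Mathlib
import Cfsg.Agent.Lib.Exc3.Section

/-!
# The extension map `β ↦ β̃`
-/

set_option autoImplicit false
set_option linter.unusedSectionVars false
set_option linter.unusedSimpArgs false
set_option linter.unusedVariables false
set_option linter.style.haveILetI false
set_option linter.unnecessarySimpa false

open scoped ComplexConjugate
open Cfsg

namespace Cfsg.Agent.Lib.Exc3

open Cfsg.Agent.Lib.Char Cfsg.Agent.Lib.Block Cfsg.Agent.Lib.BPair

section

variable {G : Type*} [Group G] [Fintype G] {p : ℕ} [hp : Fact p.Prime] {M : Ideal AlgInt}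
  {P : Sylow p G} {W : Subgroup (MulAut ↥(P : Subgroup G))}

theorem pelt_of_P (y : ↥(P : Subgroup G)) : ∃ k, orderOf (y : G) = p ^ k := by
  obtain ⟨k, hk⟩ := P.isPGroup' y
  have h1 : (y : G) ^ p ^ k = 1 := by
    have := congrArg Subtype.val hk
    simpa using this
  obtain ⟨j, -, hj⟩ := (Nat.dvd_prime_pow hp.out).1 (orderOf_dvd_of_pow_eq_one h1)
  exact ⟨j, hj⟩

theorem exists_conj_P (z : G) : ∃ (a : G) (y₀ : ↥(P : Subgroup G)) (c : Subgroup.centralizer ({(y₀ : G)} : Set G)),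
    ¬ p ∣ orderOf c ∧ a * z * a⁻¹ = y₀ * c := by
  obtain ⟨x, y, hxy, hc, ⟨k, hk⟩, hy, -, -⟩ := exists_jordan (p := p) z
  have hxp : IsPGroup p (Subgroup.zpowers x) := by
    refine IsPGroup.of_card (n := k) ?_
    rw [Nat.card_zpowers, hk]
  obtain ⟨Q, hQ⟩ := hxp.exists_le_sylow
  obtain ⟨a, rfl⟩ := MulAction.exists_smul_eq G Q P
  have h1 : x ∈ (Q : Subgroup G) := hQ (Subgroup.mem_zpowers x)
  have h2 : a * x * a⁻¹ ∈ ((a • Q : Sylow p G) : Subgroup G) := by
    rw [Sylow.coe_subgroup_smul]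
    exact ⟨x, h1, rfl⟩
  have h3 : a * y * a⁻¹ ∈ Subgroup.centralizer ({a * x * a⁻¹} : Set G) := by
    rw [Subgroup.mem_centralizer_singleton_iff]
    have h4 : y * x = x * y := hc.symm
    calc a * y * a⁻¹ * (a * x * a⁻¹) = a * (y * x) * a⁻¹ := by group
      _ = a * (x * y) * a⁻¹ := by rw [h4]
      _ = _ := by group
  refine ⟨a, ⟨_, h2⟩, ⟨_, h3⟩, ?_, ?_⟩
  · rw [Subgroup.orderOf_mk, orderOf_conj]
    exact hy
  · rw [← hxy]
    show a * (x * y) * a⁻¹ = a * x * a⁻¹ * (a * y * a⁻¹)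
    group

variable (E : ExcSetup P W)
include E

theorem reg_iff_mem {y : ↥(P : Subgroup G)} (hy : y ≠ 1) :
    ∃ K : Subgroup (Subgroup.centralizer ({(y : G)} : Set G)), K.Normal ∧
      (∀ c, ¬ p ∣ orderOf c ↔ c ∈ K) ∧ (Nat.card K).Coprime p ∧
      Nat.card K * Nat.card ↥(P : Subgroup G) = Nat.card (Subgroup.centralizer ({(y : G)} : Set G)) := by
  obtain ⟨K, hK, hc, hq, hcard⟩ := E.hnil y hy
  refine ⟨K, hK, fun c => ⟨fun h => ?_, fun h hd => ?_⟩, hc, hcard⟩
  · obtain ⟨k, hk⟩ := hq (QuotientGroup.mk c)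
    have h1 : orderOf (QuotientGroup.mk c : Subgroup.centralizer ({(y : G)} : Set G) ⧸ K) ∣ p ^ k :=
      orderOf_dvd_of_pow_eq_one hk
    have h2 : orderOf (QuotientGroup.mk c : Subgroup.centralizer ({(y : G)} : Set G) ⧸ K) ∣ orderOf c :=
      orderOf_map_dvd (QuotientGroup.mk' K) c
    have h3 : Nat.Coprime (p ^ k) (orderOf c) :=
      Nat.Coprime.pow_left k ((Nat.Prime.coprime_iff_not_dvd hp.out).2 h)
    have h4 : orderOf (QuotientGroup.mk c : Subgroup.centralizer ({(y : G)} : Set G) ⧸ K) ∣ 1 := by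
      rw [← h3.gcd_eq_one]
      exact Nat.dvd_gcd h1 h2
    have h5 := orderOf_eq_one_iff.1 (Nat.dvd_one.1 h4)
    exact (QuotientGroup.eq_one_iff c).1 h5
  · have h1 : orderOf c ∣ Nat.card K := Subgroup.orderOf_dvd_natCard K h
    have h2 := hd.trans h1
    exact ((Nat.Prime.coprime_iff_not_dvd hp.out).1 hc.symm) h2

/-- A regular element of the centralizer lies in the `p'`-core. -/
theorem reg_mem_core {y : ↥(P : Subgroup G)} (hy : y ≠ 1) (c : Subgroup.centralizer ({(y : G)} : Set G))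
    (hc : ¬ p ∣ orderOf c) : (c : G) ∈ centralizerPPrimeCore p (y : G) := by
  obtain ⟨K, hK, h1, h2, -⟩ := reg_iff_mem E hy
  exact Subgroup.mem_map_of_mem _ (Cfsg.Agent.Lib.Core.le_pPrimeCore hK h2 ((h1 c).1 hc))

variable [∀ H : Subgroup G, Fintype H]

/-- The number of regular elements in the centralizer. -/
theorem reg_card {y : ↥(P : Subgroup G)} (hy : y ≠ 1) :
    ((Finset.univ.filter fun c : Subgroup.centralizer ({(y : G)} : Set G) => ¬ p ∣ orderOf c).card) * Nat.card ↥(P : Subgroup G) =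
      Nat.card (Subgroup.centralizer ({(y : G)} : Set G)) := by
  classical
  obtain ⟨K, hK, h1, h2, h3⟩ := reg_iff_mem E hy
  rw [← h3]
  congr 1
  rw [Nat.card_eq_fintype_card]
  exact (Fintype.card_of_subtype _ (fun c => by simp [h1 c])).symm

theorem classInner_gy_const {y : ↥(P : Subgroup G)} (hy : y ≠ 1) {f : G → ℂ} (hf : IsClassFunction G f)
    (hc : ∀ c : Subgroup.centralizer ({(y : G)} : Set G), ¬ p ∣ orderOf c → f (y * c) = f y) :
    classInner (gy p (y : G)) f = (Nat.card ↥(P : Subgroup G) : ℂ)⁻¹ * conj (f y) := by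
  classical
  rw [classInner_gy _ hf]
  have h1 : ∀ c : Subgroup.centralizer ({(y : G)} : Set G), w0 p (y : G) c * conj (f (y * c)) =
      if ¬ p ∣ orderOf c then conj (f y) else 0 := by
    intro c
    by_cases hcr : p ∣ orderOf c
    · rw [w0_sing hcr, zero_mul, if_neg (not_not.2 hcr)]
    · rw [w0_reg hcr, one_mul, if_pos hcr, hc c hcr]
  rw [Finset.sum_congr rfl fun c _ => h1 c, ← Finset.sum_filter, Finset.sum_const, nsmul_eq_mul]
  have h2 := reg_card E hy
  have h3 : (Nat.card (Subgroup.centralizer ({(y : G)} : Set G)) : ℂ) =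
      ((Finset.univ.filter fun c : Subgroup.centralizer ({(y : G)} : Set G) => ¬ p ∣ orderOf c).card : ℂ) * (Nat.card ↥(P : Subgroup G) : ℂ) := by
    rw [← h2]
    push_cast
    ring
  have hP0 : (Nat.card ↥(P : Subgroup G) : ℂ) ≠ 0 := by exact_mod_cast Nat.card_pos.ne'
  have hD0 : (Nat.card (Subgroup.centralizer ({(y : G)} : Set G)) : ℂ) ≠ 0 := by exact_mod_cast Nat.card_pos.ne'
  have hr0 : ((Finset.univ.filter fun c : Subgroup.centralizer ({(y : G)} : Set G) => ¬ p ∣ orderOf c).card : ℂ) ≠ 0 := by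
    intro h4
    rw [h4, zero_mul] at h3
    exact hD0 h3
  rw [h3]
  field_simp

/-- The value of a character of the principal block on the section of `y`. -/
theorem irr_section_eq (hM : IsPModular p M) {y : ↥(P : Subgroup G)} (hy : y ≠ 1) {χ : IrrCharacter G}
    (hχ : χ ∈ principalBlock M G) (c : Subgroup.centralizer ({(y : G)} : Set G)) (hc : ¬ p ∣ orderOf c) :
    (χ : G → ℂ) (y * c) = (χ : G → ℂ) y :=
  irr_mul_of_principal hM (pelt_of_P y) (reg_mem_core E hy c hc) χ hχ

open Classical in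
/-- The value of `χ` on `P` if `χ` is in the principal block, and `0` otherwise. -/
noncomputable def nu (M : Ideal AlgInt) (χ : IrrCharacter G) (y : G) : ℂ :=
  if χ ∈ principalBlock M G then (χ : G → ℂ) y else 0

omit E in
theorem nu_conj (M : Ideal AlgInt) (χ : IrrCharacter G) (a y : G) : nu M χ (a * y * a⁻¹) = nu M χ y := by
  classical
  unfold nu
  split_ifs
  · exact IsCharacter.isClassFunction (IsIrrCharacter.isCharacter χ.2) _ _
  · rfl

theorem classInner_gy_irr (hM : IsPModular p M) {y : ↥(P : Subgroup G)} (hy : y ≠ 1) (χ : IrrCharacter G) :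
    classInner (gy p (y : G)) (χ : G → ℂ) = (Nat.card ↥(P : Subgroup G) : ℂ)⁻¹ * conj (nu M χ y) := by
  classical
  unfold nu
  by_cases hχ : χ ∈ principalBlock M G
  · rw [if_pos hχ]
    exact classInner_gy_const E hy (IsCharacter.isClassFunction (IsIrrCharacter.isCharacter χ.2))
      (irr_section_eq E hM hy hχ)
  · rw [if_neg hχ, classInner_gy_of_notMem hM (pelt_of_P y) hχ]
    simp

omit E [∀ H : Subgroup G, Fintype H] in
/-- The values of `gy` on a section through `P`. -/
theorem gy_apply_P (y y₀ : ↥(P : Subgroup G)) (c : Subgroup.centralizer ({(y₀ : G)} : Set G)) (hc : ¬ p ∣ orderOf c) :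
    gy p (y : G) (y₀ * c) = (open Classical in if IsConj (y₀ : G) (y : G) then 1 else 0) := by
  classical
  split_ifs with h
  · exact gy_conj (pelt_of_P y) h c hc
  · exact gy_not_conj (pelt_of_P y) (pelt_of_P y₀) h c hc

omit [Fintype G] [∀ H : Subgroup G, Fintype H] in
theorem isConj_iff_W (y y' : ↥(P : Subgroup G)) : IsConj (y : G) (y' : G) ↔ ∃ τ : W, (τ : MulAut ↥(P : Subgroup G)) y = y' := by
  constructor
  · intro h
    obtain ⟨τ, hτ, h1⟩ := E.hfus y y' h
    exact ⟨⟨τ, hτ⟩, h1⟩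
  · rintro ⟨τ, rfl⟩
    obtain ⟨n, -, hn⟩ := E.hact₂ τ τ.2
    rw [hn]
    exact isConj_iff.2 ⟨n, rfl⟩

omit [Fintype G] [∀ H : Subgroup G, Fintype H] in
theorem W_inj {y : ↥(P : Subgroup G)} (hy : y ≠ 1) : Function.Injective (fun τ : W => (τ : MulAut ↥(P : Subgroup G)) y) := by
  intro τ ρ h
  by_contra hne
  have h1 : (ρ : MulAut ↥(P : Subgroup G))⁻¹ * τ ≠ 1 := by
    intro h2
    apply hne
    apply Subtype.ext
    exact (inv_mul_eq_one.1 h2).symm
  apply E.hfree _ (W.mul_mem (W.inv_mem ρ.2) τ.2) h1 y hy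
  simp only at h
  simp [MulAut.mul_apply, h]

variable [Fintype W]

omit [∀ H : Subgroup G, Fintype H] in
/-- The sum over the elements of `P` conjugate to `y₀`. -/
theorem sum_isConj {y₀ : ↥(P : Subgroup G)} (hy₀ : y₀ ≠ 1) (F : ↥(P : Subgroup G) → ℂ) [Fintype ↥(P : Subgroup G)] :
    (∑ y : ↥(P : Subgroup G), (open Classical in if IsConj (y₀ : G) (y : G) then F y else 0)) =
      ∑ τ : W, F ((τ : MulAut ↥(P : Subgroup G)) y₀) := by
  classical
  rw [← Finset.sum_filter]
  have h1 : Finset.univ.filter (fun y : ↥(P : Subgroup G) => IsConj (y₀ : G) (y : G)) =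
      Finset.univ.image (fun τ : W => (τ : MulAut ↥(P : Subgroup G)) y₀) := by
    ext y
    simp only [Finset.mem_filter, Finset.mem_univ, true_and, Finset.mem_image]
    exact isConj_iff_W E y₀ y
  rw [h1, Finset.sum_image (fun a _ b _ hab => W_inj E hy₀ hab)]

/-- The extension of a function `β` on `P`. -/
noncomputable def tilde (p : ℕ) (P : Sylow p G) (β : ↥(P : Subgroup G) → ℂ) [Fintype ↥(P : Subgroup G)] : G → ℂ :=
  fun z => (3 : ℂ)⁻¹ * ∑ y : ↥(P : Subgroup G), β y * gy p (y : G) z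

omit E [Fintype W] in
theorem tilde_cl (β : ↥(P : Subgroup G) → ℂ) : IsClassFunction G (tilde p P β) := by
  intro g h
  unfold tilde
  congr 1
  refine Finset.sum_congr rfl fun y _ => ?_
  rw [gy_cl (y : G) g h]

/-- `β` is `W`-invariant. -/
def WInv (W : Subgroup (MulAut ↥(P : Subgroup G))) (β : ↥(P : Subgroup G) → ℂ) : Prop :=
  ∀ τ ∈ W, ∀ y, β (τ y) = β y

/-- **The values of the extension.** -/
theorem tilde_apply {β : ↥(P : Subgroup G) → ℂ} (hβ : WInv W β) (hβ1 : β 1 = 0)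
    (y₀ : ↥(P : Subgroup G)) (c : Subgroup.centralizer ({(y₀ : G)} : Set G)) (hc : ¬ p ∣ orderOf c) :
    tilde p P β (y₀ * c) = β y₀ := by
  classical
  unfold tilde
  have h1 : ∀ y : ↥(P : Subgroup G), β y * gy p (y : G) (y₀ * c) = if IsConj (y₀ : G) (y : G) then β y else 0 := by
    intro y
    rw [gy_apply_P y y₀ c hc]
    split_ifs <;> simp
  rw [Finset.sum_congr rfl fun y _ => h1 y]
  by_cases hy₀ : y₀ = 1
  · subst hy₀
    rw [Finset.sum_eq_zero, mul_zero, hβ1]
    intro y _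
    split_ifs with h
    · have h2 : (y : G) = 1 := by
        have : IsConj (1 : G) (y : G) := by simpa using h
        exact isConj_one_right.1 this
      have h3 : y = 1 := Subtype.ext h2
      rw [h3, hβ1]
    · rfl
  · rw [sum_isConj E hy₀ β, Finset.sum_congr rfl fun τ _ => hβ _ τ.2 y₀]
    simp only [Finset.sum_const, Finset.card_univ, nsmul_eq_mul]
    rw [← Nat.card_eq_fintype_card, E.hW3]
    norm_num
    ring

/-- The values of the extension at an arbitrary element. -/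
theorem tilde_of_conj {β : ↥(P : Subgroup G) → ℂ} (hβ : WInv W β) (hβ1 : β 1 = 0) {z a : G}
    (y₀ : ↥(P : Subgroup G)) (c : Subgroup.centralizer ({(y₀ : G)} : Set G)) (hc : ¬ p ∣ orderOf c)
    (h : a * z * a⁻¹ = y₀ * c) : tilde p P β z = β y₀ := by
  rw [← tilde_cl β z a, h]
  exact tilde_apply E hβ hβ1 y₀ c hc

/-- The inner product of an extension and a class function. -/
theorem classInner_tilde (β : ↥(P : Subgroup G) → ℂ) (f : G → ℂ) :
    classInner (tilde p P β) f = (3 : ℂ)⁻¹ * ∑ y : ↥(P : Subgroup G), β y * classInner (gy p (y : G)) f := by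
  simp only [classInner_def, tilde, Finset.mul_sum, Finset.sum_mul]
  rw [Finset.sum_comm]
  refine Finset.sum_congr rfl fun y _ => ?_
  refine Finset.sum_congr rfl fun g _ => ?_
  ring

theorem classInner_tilde_const {β : ↥(P : Subgroup G) → ℂ} (hβ1 : β 1 = 0) {f : G → ℂ} (hf : IsClassFunction G f)
    (hc : ∀ y : ↥(P : Subgroup G), y ≠ 1 → ∀ c : Subgroup.centralizer ({(y : G)} : Set G), ¬ p ∣ orderOf c → f (y * c) = f y) :
    classInner (tilde p P β) f * (3 * (Nat.card ↥(P : Subgroup G) : ℂ)) = ∑ y : ↥(P : Subgroup G), β y * conj (f y) := by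
  have hP0 : (Nat.card ↥(P : Subgroup G) : ℂ) ≠ 0 := by exact_mod_cast Nat.card_pos.ne'
  rw [classInner_tilde E]
  have h1 : ∀ y : ↥(P : Subgroup G), β y * classInner (gy p (y : G)) f = (Nat.card ↥(P : Subgroup G) : ℂ)⁻¹ * (β y * conj (f y)) := by
    intro y
    by_cases hy : y = 1
    · subst hy
      rw [hβ1]
      simp
    · rw [classInner_gy_const E hy hf (hc y hy)]
      ring
  rw [Finset.sum_congr rfl fun y _ => h1 y, ← Finset.mul_sum]
  field_simp

theorem classInner_tilde_irr (hM : IsPModular p M) {β : ↥(P : Subgroup G) → ℂ} (hβ1 : β 1 = 0) (χ : IrrCharacter G) :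
    classInner (tilde p P β) (χ : G → ℂ) * (3 * (Nat.card ↥(P : Subgroup G) : ℂ)) =
      ∑ y : ↥(P : Subgroup G), β y * conj (nu M χ y) := by
  have hP0 : (Nat.card ↥(P : Subgroup G) : ℂ) ≠ 0 := by exact_mod_cast Nat.card_pos.ne'
  rw [classInner_tilde E]
  have h1 : ∀ y : ↥(P : Subgroup G), β y * classInner (gy p (y : G)) (χ : G → ℂ) =
      (Nat.card ↥(P : Subgroup G) : ℂ)⁻¹ * (β y * conj (nu M χ y)) := by
    intro y
    by_cases hy : y = 1
    · subst hy
      rw [hβ1]
      simp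
    · rw [classInner_gy_irr E hM hy]
      ring
  rw [Finset.sum_congr rfl fun y _ => h1 y, ← Finset.mul_sum]
  field_simp

end

end Cfsg.Agent.Lib.Exc3
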