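import Mathlib
import Cfsg.Agent.Lib.Exc3.Tilde
import Cfsg.Agent.Lib.Char.Brauer
import Cfsg.Agent.Lib.PGroup.MaxNormal
import Cfsg.Agent.Lib.Transfer.Comp
import Cfsg.Agent.Lib.Char.Burnside
import Cfsg.Agent.Lib.Char.Ops

/-!
# The extension of `α_ψ` is a generalized character (Brauer's characterization)
-/

set_option autoImplicit false
set_option linter.unusedSectionVars false
set_option linter.unusedSimpArgs false
set_option linter.unusedVariables false
set_option linter.style.haveILetI false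
set_option linter.unnecessarySimpa false

open scoped ComplexConjugate
open Cfsg

namespace Cfsg.Agent.Lib.Exc3

open Cfsg.Agent.Lib.Char Cfsg.Agent.Lib.Block Cfsg.Agent.Lib.Transfer

section Abstract

variable {E : Type*} [Group E] [Finite E]

theorem isNilpotent_of_elementary {q : ℕ} (hq : q.Prime) (h : IsElementary q E) : Group.IsNilpotent E := by
  obtain ⟨x, hx, hcop, k, hk⟩ := h
  haveI : Fact q.Prime := ⟨hq⟩
  have hle : Subgroup.zpowers x ≤ Subgroup.center E := Subgroup.zpowers_le.2 hx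
  haveI : (Subgroup.zpowers x).Normal := by
    constructor
    intro n hn g
    have h1 := hle hn
    rw [Subgroup.mem_center_iff] at h1
    rw [h1 g, mul_assoc, mul_inv_cancel, mul_one]
    exact hn
  have h2 : IsPGroup q (E ⧸ Subgroup.zpowers x) := IsPGroup.of_card (n := k) (by
    rw [← Subgroup.index_eq_card]
    exact hk)
  haveI hn := h2.isNilpotent
  refine isNilpotent_of_ker_le_center (QuotientGroup.mk' (Subgroup.zpowers x)) ?_
  rw [QuotientGroup.ker_mk']
  exact hle

variable {p : ℕ} [hp : Fact p.Prime]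

theorem sylow_central [Group.IsNilpotent E] (S : Sylow p E) (hab : ∀ a ∈ (S : Subgroup E), ∀ b ∈ (S : Subgroup E), a * b = b * a)
    {s : E} (hs : s ∈ (S : Subgroup E)) (e : E) : s * e = e * s := by
  obtain ⟨u, v, rfl, hc, ⟨k, hk⟩, hv, -, -⟩ := Cfsg.Agent.Lib.Block.exists_jordan (p := p) e
  have hup : IsPGroup p (Subgroup.zpowers u) := by
    refine IsPGroup.of_card (n := k) ?_
    rw [Nat.card_zpowers, hk]
  have huS : u ∈ (S : Subgroup E) := by
    obtain ⟨Q, hQ⟩ := hup.exists_le_sylow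
    obtain ⟨a, ha⟩ := MulAction.exists_smul_eq E Q S
    have h1 : u ∈ (Q : Subgroup E) := hQ (Subgroup.mem_zpowers u)
    have h2 : a * u * a⁻¹ ∈ (S : Subgroup E) := by
      rw [← ha, Sylow.coe_subgroup_smul]
      exact ⟨u, h1, rfl⟩
    have hN : (S : Subgroup E).Normal := inferInstance
    have h3 := hN.conj_mem _ h2 a⁻¹
    have h4 : a⁻¹ * (a * u * a⁻¹) * a⁻¹⁻¹ = u := by group
    rwa [h4] at h3
  have hsp : IsPGroup p (Subgroup.zpowers s) := by
    refine S.isPGroup'.to_le ?_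
    exact Subgroup.zpowers_le.2 hs
  have h1 : Commute s v := Cfsg.Agent.Lib.PGroup.commute_of_nilpotent_of_coprime hsp
    ((Nat.Prime.coprime_iff_not_dvd hp.out).2 hv).symm
  have h2 : s * u = u * s := hab s hs u huS
  calc s * (u * v) = (s * u) * v := by group
    _ = u * (s * v) := by rw [h2]; group
    _ = u * (v * s) := by rw [h1.eq]
    _ = _ := by group

/-- The `p`-part is a homomorphism when the Sylow subgroups are central. -/
theorem exists_part_hom (hcen : ∀ (S : Sylow p E), ∀ s ∈ (S : Subgroup E), ∀ e : E, s * e = e * s) :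
    ∃ (S : Sylow p E) (f : E →* (S : Subgroup E)), ∀ e : E, ∃ k : E, e = (f e : E) * k ∧ Commute (f e : E) k ∧ ¬ p ∣ orderOf k := by
  obtain ⟨S₀⟩ : Nonempty (Sylow p E) := inferInstance
  have hbur : Subgroup.normalizer ((S₀ : Subgroup E) : Set E) ≤ Subgroup.centralizer ((S₀ : Subgroup E) : Set E) := by
    intro g _
    rw [Subgroup.mem_centralizer_iff]
    intro s hs
    exact hcen S₀ s hs g
  obtain ⟨S, K, hK, hc⟩ := hasNormalPComplement_of_burnside S₀ hbur
  let φ : (S : Subgroup E) →* E ⧸ K := (QuotientGroup.mk' K).comp (S : Subgroup E).subtype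
  have hinj : Function.Injective φ := by
    rw [injective_iff_map_eq_one]
    intro s hs
    have h1 : (s : E) ∈ K := (QuotientGroup.eq_one_iff (s : E)).1 hs
    have h2 := Subgroup.disjoint_def.1 hc.disjoint h1 s.2
    exact Subtype.ext h2
  have hsurj : Function.Surjective φ := by
    intro x
    obtain ⟨e, rfl⟩ := QuotientGroup.mk_surjective x
    obtain ⟨⟨k, s⟩, hks⟩ := hc.2 e
    refine ⟨s, ?_⟩
    rw [← hks]
    apply (QuotientGroup.eq_iff_div_mem).2
    show (s : E) / ((k : E) * (s : E)) ∈ K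
    have h3 : (s : E) / ((k : E) * (s : E)) = (k : E)⁻¹ := by
      rw [div_eq_mul_inv, mul_inv_rev, mul_inv_cancel_left]
    rw [h3]
    exact K.inv_mem k.2
  let e' := MulEquiv.ofBijective φ ⟨hinj, hsurj⟩
  let f : E →* (S : Subgroup E) := e'.symm.toMonoidHom.comp (QuotientGroup.mk' K)
  have hcopK := complement_card_coprime hc
  refine ⟨S, f, fun e => ⟨(f e : E)⁻¹ * e, by group, ?_, ?_⟩⟩
  · apply Commute.symm
    show _ * (f e : E) = (f e : E) * _
    exact (hcen S _ (f e).2 _).symm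
  · have h1 : φ (f e) = QuotientGroup.mk e := e'.apply_symm_apply _
    have h2 : (f e : E)⁻¹ * e ∈ K := QuotientGroup.eq.1 h1
    intro hd
    have h3 := hd.trans (Subgroup.orderOf_dvd_natCard K h2)
    exact ((Nat.Prime.coprime_iff_not_dvd hp.out).1 hcopK.symm) h3

end Abstract

section InG

variable {G : Type*} [Group G] [Fintype G] {p : ℕ} [hp : Fact p.Prime]
  {P : Sylow p G} {W : Subgroup (MulAut ↥(P : Subgroup G))} [∀ H : Subgroup G, Fintype H] [Fintype W]
  (E : ExcSetup P W)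

include E

omit [Fintype W] [∀ H : Subgroup G, Fintype H] in
/-- A `p`-subgroup of a subgroup conjugates into `P`. -/
theorem exists_conj_sylow_sub (E₁ : Subgroup G) (S : Sylow p E₁) :
    ∃ a : G, ∀ s ∈ (S : Subgroup E₁), a * (s : G) * a⁻¹ ∈ (P : Subgroup G) := by
  have h1 : IsPGroup p ((S : Subgroup E₁).map E₁.subtype) := S.isPGroup'.map _
  obtain ⟨Q, hQ⟩ := h1.exists_le_sylow
  obtain ⟨a, rfl⟩ := MulAction.exists_smul_eq G Q P
  refine ⟨a, fun s hs => ?_⟩
  have h2 : (s : G) ∈ (Q : Subgroup G) := hQ (Subgroup.mem_map_of_mem _ hs)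
  rw [Sylow.coe_subgroup_smul]
  exact ⟨s, h2, rfl⟩

omit [Fintype W] [∀ H : Subgroup G, Fintype H] in
theorem sylow_sub_comm (E₁ : Subgroup G) (S : Sylow p E₁) :
    ∀ a ∈ (S : Subgroup E₁), ∀ b ∈ (S : Subgroup E₁), a * b = b * a := by
  obtain ⟨g, hg⟩ := exists_conj_sylow_sub E E₁ S
  intro a ha b hb
  have h1 := E.hab ⟨_, hg a ha⟩ ⟨_, hg b hb⟩
  have h2 := congrArg Subtype.val h1
  simp only [Subgroup.coe_mul] at h2
  apply Subtype.ext
  simp only [Subgroup.coe_mul]
  have h3 : g * ((a : G) * b) * g⁻¹ = g * ((b : G) * a) * g⁻¹ := by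
    calc g * ((a : G) * b) * g⁻¹ = g * a * g⁻¹ * (g * b * g⁻¹) := by group
      _ = g * b * g⁻¹ * (g * a * g⁻¹) := h2
      _ = _ := by group
  exact mul_left_cancel (mul_right_cancel h3)

/-- The extension restricted to a nilpotent subgroup factors through a homomorphism to `P`. -/
theorem exists_hom_nilpotent (E₁ : Subgroup G) (hn : Group.IsNilpotent E₁) :
    ∃ f : E₁ →* ↥(P : Subgroup G), ∀ β : ↥(P : Subgroup G) → ℂ, WInv W β → β 1 = 0 → ∀ e : E₁, tilde p P β e = β (f e) := by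
  obtain ⟨S, f₀, hf₀⟩ := exists_part_hom (E := E₁) (p := p) fun S s hs e => sylow_central S (sylow_sub_comm E E₁ S) hs e
  obtain ⟨a, ha⟩ := exists_conj_sylow_sub E E₁ S
  let f : E₁ →* ↥(P : Subgroup G) := MonoidHom.mk' (fun e => ⟨a * ((f₀ e : E₁) : G) * a⁻¹, ha _ (f₀ e).2⟩) (by
    intro x y
    apply Subtype.ext
    simp only [Subgroup.coe_mul, map_mul]
    group)
  refine ⟨f, fun β hβ hβ1 e => ?_⟩
  obtain ⟨k, hk, hkc, hkr⟩ := hf₀ e
  have hmem : a * (k : G) * a⁻¹ ∈ Subgroup.centralizer ({((f e : ↥(P : Subgroup G)) : G)} : Set G) := by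
    rw [Subgroup.mem_centralizer_singleton_iff]
    show a * (k : G) * a⁻¹ * (a * ((f₀ e : E₁) : G) * a⁻¹) = a * ((f₀ e : E₁) : G) * a⁻¹ * (a * (k : G) * a⁻¹)
    have h1 : (k : G) * ((f₀ e : E₁) : G) = ((f₀ e : E₁) : G) * k := by
      have := hkc.symm.eq
      exact congrArg Subtype.val this
    calc a * (k : G) * a⁻¹ * (a * ((f₀ e : E₁) : G) * a⁻¹) = a * ((k : G) * ((f₀ e : E₁) : G)) * a⁻¹ := by group
      _ = a * (((f₀ e : E₁) : G) * k) * a⁻¹ := by rw [h1]
      _ = _ := by group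
  refine tilde_of_conj E hβ hβ1 (a := a) (f e) ⟨_, hmem⟩ ?_ ?_
  · rw [Subgroup.orderOf_mk, Cfsg.Agent.Lib.Block.orderOf_conj, Subgroup.orderOf_coe]
    exact hkr
  · have h2 : (e : G) = ((f₀ e : E₁) : G) * k := by
      have := congrArg Subtype.val hk
      simpa using this
    show a * (e : G) * a⁻¹ = a * ((f₀ e : E₁) : G) * a⁻¹ * (a * (k : G) * a⁻¹)
    rw [h2]
    group

theorem alp_winv (ψ : ↥(P : Subgroup G) →* ℂˣ) : WInv W (alp W ψ) := fun τ hτ y => alp_act ψ ⟨τ, hτ⟩ y

/-- **The extension of `α_ψ` is a generalized character.** -/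
theorem tilde_alp_gen (ψ : ↥(P : Subgroup G) →* ℂˣ) : IsGeneralizedCharacter G (tilde p P (alp W ψ)) := by
  refine isGeneralized_of_elementary _ (tilde_cl _) fun E₁ q hq hel => ?_
  obtain ⟨f, hf⟩ := exists_hom_nilpotent E E₁ (isNilpotent_of_elementary hq hel)
  have h1 : (fun e : E₁ => tilde p P (alp W ψ) e) =
      (∑ τ : W, fun e : E₁ => (((rc ψ (τ : MulAut ↥(P : Subgroup G))).comp f e : ℂˣ) : ℂ)) - fun _ => ((3 : ℕ) : ℂ) := by
    funext e
    rw [hf _ (alp_winv E ψ) (alp_one E.hW3 ψ) e]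
    simp only [Pi.sub_apply, Finset.sum_apply, alp, hat]
    norm_num
  rw [h1]
  refine IsGeneralizedCharacter.sub (IsGeneralizedCharacter.sum _ fun τ _ => ?_)
    (IsGeneralizedCharacter.of_isCharacter (IsCharacter.const_natCast 3))
  exact IsGeneralizedCharacter.of_isCharacter (IsIrrCharacter.isCharacter (isIrrCharacter_of_hom _))

end InG

end Cfsg.Agent.Lib.Exc3
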