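import Mathlib
import Cfsg.Agent.Lib.Exc3.Gen
import Cfsg.Agent.Lib.Exc3.Combi
import Cfsg.Agent.Lib.Char.Complete
import Cfsg.Agent.Lib.Char.Constituent

/-!
# The integer coefficients of the extensions and the structure of the family
-/

set_option autoImplicit false
set_option linter.unusedSectionVars false
set_option linter.unusedSimpArgs false
set_option linter.unusedVariables false
set_option linter.style.haveILetI false
set_option linter.unnecessarySimpa false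

open scoped ComplexConjugate
open Cfsg

namespace Cfsg.Agent.Lib.Exc3

open Cfsg.Agent.Lib.Char Cfsg.Agent.Lib.Block

section

variable {G : Type*} [Group G] [Fintype G] {p : ℕ} [hp : Fact p.Prime] {M : Ideal AlgInt}
  {P : Sylow p G} {W : Subgroup (MulAut ↥(P : Subgroup G))} [∀ H : Subgroup G, Fintype H] [Fintype W]
  (E : ExcSetup P W)

include E

theorem tilde_at_P {β : ↥(P : Subgroup G) → ℂ} (hβ : WInv W β) (hβ1 : β 1 = 0) (y : ↥(P : Subgroup G)) :
    tilde p P β y = β y := by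
  have h := tilde_apply E hβ hβ1 y 1 (by
    rw [orderOf_one]
    exact fun hd => hp.out.ne_one (Nat.dvd_one.1 hd))
  simpa using h

theorem tilde_alp_at_P (ψ : ↥(P : Subgroup G) →* ℂˣ) (y : ↥(P : Subgroup G)) :
    tilde p P (alp W ψ) y = alp W ψ y :=
  tilde_at_P E (alp_winv E ψ) (alp_one E.hW3 ψ) y

theorem exists_coeff : ∃ c : (↥(P : Subgroup G) →* ℂˣ) → IrrCharacter G → ℤ,
    ∀ ψ χ, ((c ψ χ : ℤ) : ℂ) = classInner (tilde p P (alp W ψ)) (χ : G → ℂ) := by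
  have h : ∀ (ψ : ↥(P : Subgroup G) →* ℂˣ) (χ : IrrCharacter G), ∃ n : ℤ, classInner (tilde p P (alp W ψ)) (χ : G → ℂ) = n := by
    intro ψ χ
    exact classInner_isGeneralized_int (tilde_alp_gen E ψ)
      (IsGeneralizedCharacter.of_isCharacter (IsIrrCharacter.isCharacter χ.2))
  choose c hc using h
  exact ⟨c, fun ψ χ => (hc ψ χ).symm⟩

/-- The isometry. -/
theorem classInner_tilde_tilde {ψ φ : ↥(P : Subgroup G) →* ℂˣ} (hψ : ψ ≠ 1) (hφ : φ ≠ 1) :
    classInner (tilde p P (alp W ψ)) (tilde p P (alp W φ)) = (open Classical in if orbR W ψ φ then 1 else 0) + 3 := by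
  classical
  have hP0 : (Nat.card ↥(P : Subgroup G) : ℂ) ≠ 0 := by exact_mod_cast Nat.card_pos.ne'
  have h1 := classInner_tilde_const E (alp_one E.hW3 ψ) (tilde_cl (alp W φ)) (fun y hy c hc => by
    rw [tilde_apply E (alp_winv E φ) (alp_one E.hW3 φ) y c hc, tilde_alp_at_P E φ y])
  rw [Finset.sum_congr rfl fun y _ => by rw [tilde_alp_at_P E φ y], sum_alp_conj_alp E.hab E.hW3 E.hfree hψ hφ] at h1
  have h3 : (3 : ℂ) * (Nat.card ↥(P : Subgroup G) : ℂ) ≠ 0 := mul_ne_zero (by norm_num) hP0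
  apply mul_right_cancel₀ h3
  rw [h1]
  split_ifs <;> ring

/-- The orthogonality relations for the coefficients. -/
theorem sum_coeff_mul {c : (↥(P : Subgroup G) →* ℂˣ) → IrrCharacter G → ℤ}
    (hc : ∀ ψ χ, ((c ψ χ : ℤ) : ℂ) = classInner (tilde p P (alp W ψ)) (χ : G → ℂ))
    {ψ φ : ↥(P : Subgroup G) →* ℂˣ} (hψ : ψ ≠ 1) (hφ : φ ≠ 1) :
    ∑ χ : IrrCharacter G, c ψ χ * c φ χ = (open Classical in if orbR W ψ φ then 1 else 0) + 3 := by
  classical
  have h1 := classInner_tilde_tilde E hψ hφ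
  rw [classInner_eq_sum _ _ (tilde_cl _) (tilde_cl _)] at h1
  have h2 : ∀ χ : IrrCharacter G, classInner (tilde p P (alp W ψ)) (χ : G → ℂ) * conj (classInner (tilde p P (alp W φ)) (χ : G → ℂ)) =
      ((c ψ χ * c φ χ : ℤ) : ℂ) := by
    intro χ
    rw [← hc, ← hc, map_intCast]
    push_cast
    ring
  rw [Finset.sum_congr rfl fun χ _ => h2 χ] at h1
  have h3 : ((∑ χ : IrrCharacter G, c ψ χ * c φ χ : ℤ) : ℂ) = (((if orbR W ψ φ then 1 else 0) + 3 : ℤ) : ℂ) := by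
    push_cast
    rw [← h1]
    push_cast
    simp
  exact_mod_cast h3

/-- The coefficient at the principal character. -/
theorem coeff_one {c : (↥(P : Subgroup G) →* ℂˣ) → IrrCharacter G → ℤ}
    (hc : ∀ ψ χ, ((c ψ χ : ℤ) : ℂ) = classInner (tilde p P (alp W ψ)) (χ : G → ℂ))
    {ψ : ↥(P : Subgroup G) →* ℂˣ} (hψ : ψ ≠ 1) : c ψ (oneIrr G) = -1 := by
  have hP0 : (Nat.card ↥(P : Subgroup G) : ℂ) ≠ 0 := by exact_mod_cast Nat.card_pos.ne'
  have h1 := classInner_tilde_const E (alp_one E.hW3 ψ) (f := ((oneIrr G : IrrCharacter G) : G → ℂ)) (fun _ _ => rfl) (fun y hy c hc => rfl)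
  have h2 : ∀ y : ↥(P : Subgroup G), alp W ψ y * conj (((oneIrr G : IrrCharacter G) : G → ℂ) y) = alp W ψ y := by
    intro y
    rw [oneIrr_coe]
    simp
  rw [Finset.sum_congr rfl fun y _ => h2 y, sum_alp E.hW3 hψ] at h1
  have h3 : (3 : ℂ) * (Nat.card ↥(P : Subgroup G) : ℂ) ≠ 0 := mul_ne_zero (by norm_num) hP0
  have h4 : ((c ψ (oneIrr G) : ℤ) : ℂ) = -1 := by
    rw [hc]
    apply mul_right_cancel₀ h3
    rw [h1]
    ring
  exact_mod_cast h4

/-- The degree equation. -/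
theorem sum_coeff_deg {c : (↥(P : Subgroup G) →* ℂˣ) → IrrCharacter G → ℤ}
    (hc : ∀ ψ χ, ((c ψ χ : ℤ) : ℂ) = classInner (tilde p P (alp W ψ)) (χ : G → ℂ))
    (ψ : ↥(P : Subgroup G) →* ℂˣ) : ∑ χ : IrrCharacter G, c ψ χ * (charDegree (χ : G → ℂ) : ℤ) = 0 := by
  have h1 := classFunction_eq_sum _ (tilde_cl (alp W ψ))
  have h2 := congrFun h1 1
  have h3 := tilde_alp_at_P E ψ 1
  rw [alp_one E.hW3] at h3
  have h4 : tilde p P (alp W ψ) 1 = 0 := by simpa using h3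
  rw [h4, Finset.sum_apply] at h2
  have h5 : ∀ χ : IrrCharacter G, (classInner (tilde p P (alp W ψ)) (χ : G → ℂ) • (χ : G → ℂ)) 1 =
      ((c ψ χ * (charDegree (χ : G → ℂ) : ℤ) : ℤ) : ℂ) := by
    intro χ
    rw [Pi.smul_apply, smul_eq_mul, ← hc, map_one_eq_charDegree (IsIrrCharacter.isCharacter χ.2)]
    push_cast
    ring
  rw [Finset.sum_congr rfl fun χ _ => h5 χ] at h2
  have h6 : ((∑ χ : IrrCharacter G, c ψ χ * (charDegree (χ : G → ℂ) : ℤ) : ℤ) : ℂ) = ((0 : ℤ) : ℂ) := by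
    push_cast
    push_cast at h2
    rw [← h2]
  exact_mod_cast h6

/-- Fourier inversion for a fixed character. -/
theorem coeff_inversion (hM : IsPModular p M) [Fintype (↥(P : Subgroup G) →* ℂˣ)]
    {c : (↥(P : Subgroup G) →* ℂˣ) → IrrCharacter G → ℤ}
    (hc : ∀ ψ χ, ((c ψ χ : ℤ) : ℂ) = classInner (tilde p P (alp W ψ)) (χ : G → ℂ))
    (χ : IrrCharacter G) {y₀ : ↥(P : Subgroup G)} (hy₀ : y₀ ≠ 1) :
    (∑ ψ : ↥(P : Subgroup G) →* ℂˣ, (open Classical in if ψ = 1 then 0 else ((c ψ χ : ℤ) : ℂ) * ((ψ y₀ : ℂˣ) : ℂ))) =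
      nu M χ y₀ := by
  classical
  have hinv : ∀ (ρ : W) (y : ↥(P : Subgroup G)), conj (nu M χ ((ρ : MulAut ↥(P : Subgroup G)) y)) = conj (nu M χ y) := by
    intro ρ y
    obtain ⟨n, -, hn⟩ := E.hact₂ ρ ρ.2
    rw [hn, nu_conj]
  have h1 := sum_coeff_conj E.hab E.hW3 hinv (fun ψ => ((c ψ χ : ℤ) : ℂ)) (fun ψ hψ => by
    rw [hc]
    exact classInner_tilde_irr E hM (alp_one E.hW3 ψ) χ) hy₀
  have h2 := congrArg (starRingEnd ℂ) h1
  rw [Complex.conj_conj, map_sum] at h2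
  rw [← h2]
  refine Finset.sum_congr rfl fun ψ _ => ?_
  split_ifs
  · simp
  · rw [map_mul, Complex.conj_conj, map_intCast]

/-- The coefficients vanish outside the principal block. -/
theorem coeff_of_notMem (hM : IsPModular p M) {c : (↥(P : Subgroup G) →* ℂˣ) → IrrCharacter G → ℤ}
    (hc : ∀ ψ χ, ((c ψ χ : ℤ) : ℂ) = classInner (tilde p P (alp W ψ)) (χ : G → ℂ))
    (ψ : ↥(P : Subgroup G) →* ℂˣ) {χ : IrrCharacter G} (hχ : χ ∉ principalBlock M G) : c ψ χ = 0 := by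
  classical
  have hP0 : (Nat.card ↥(P : Subgroup G) : ℂ) ≠ 0 := by exact_mod_cast Nat.card_pos.ne'
  have h1 := classInner_tilde_irr E hM (alp_one E.hW3 ψ) χ
  have h2 : ∀ y : ↥(P : Subgroup G), alp W ψ y * conj (nu M χ y) = 0 := by
    intro y
    unfold nu
    rw [if_neg hχ]
    simp
  rw [Finset.sum_eq_zero fun y _ => h2 y, ← hc] at h1
  have h3 : (3 : ℂ) * (Nat.card ↥(P : Subgroup G) : ℂ) ≠ 0 := mul_ne_zero (by norm_num) hP0
  have h4 := (mul_eq_zero.1 h1).resolve_right h3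
  exact_mod_cast h4

end

end Cfsg.Agent.Lib.Exc3
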