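import Mathlib
import Cfsg.Agent.Lib.Exc3.Coeff

/-!
# The structure of the family of coefficients
-/

set_option autoImplicit false
set_option linter.unusedSectionVars false
set_option linter.unusedSimpArgs false
set_option linter.unusedVariables false
set_option linter.style.haveILetI false
set_option linter.unnecessarySimpa false

open scoped ComplexConjugate
open Cfsg

namespace Cfsg.Agent.Lib.Exc3

open Cfsg.Agent.Lib.Char Cfsg.Agent.Lib.Block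

section

variable {G : Type*} [Group G] [Fintype G] {p : ℕ} [hp : Fact p.Prime]

/-- The data produced by the combinatorial analysis. -/
structure ExcStruct (P : Sylow p G) (W : Subgroup (MulAut ↥(P : Subgroup G))) [∀ H : Subgroup G, Fintype H] [Fintype W] where
  c : (↥(P : Subgroup G) →* ℂˣ) → IrrCharacter G → ℤ
  ξ₁ : IrrCharacter G
  ξ₂ : IrrCharacter G
  s₁ : ℤ
  s₂ : ℤ
  δ : ℤ
  D : ℤ
  ζ : (↥(P : Subgroup G) →* ℂˣ) → IrrCharacter G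
  ψ₀ : ↥(P : Subgroup G) →* ℂˣ
  hψ₀ : ψ₀ ≠ 1
  hc : ∀ ψ χ, ((c ψ χ : ℤ) : ℂ) = classInner (tilde p P (alp W ψ)) (χ : G → ℂ)
  hne : ξ₁ ≠ ξ₂
  hξ₁ : ξ₁ ≠ oneIrr G
  hξ₂ : ξ₂ ≠ oneIrr G
  hs₁ : s₁ = 1 ∨ s₁ = -1
  hs₂ : s₂ = 1 ∨ s₂ = -1
  hδ : δ = 1 ∨ δ = -1
  hD : 0 < D
  hval : ∀ ψ, ψ ≠ 1 → c ψ ξ₁ = s₁ ∧ c ψ ξ₂ = s₂ ∧ c ψ (ζ ψ) = δ ∧ ζ ψ ≠ oneIrr G ∧ ζ ψ ≠ ξ₁ ∧ ζ ψ ≠ ξ₂ ∧
    (charDegree (ζ ψ : G → ℂ) : ℤ) = D ∧ ∀ i, i ≠ oneIrr G → i ≠ ξ₁ → i ≠ ξ₂ → i ≠ ζ ψ → c ψ i = 0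
  hζ : ∀ ψ, ψ ≠ 1 → ∀ φ, φ ≠ 1 → (ζ φ = ζ ψ ↔ orbR W ψ φ)
  hdeg : s₁ * (charDegree (ξ₁ : G → ℂ) : ℤ) + s₂ * (charDegree (ξ₂ : G → ℂ) : ℤ) + δ * D = 1

variable {P : Sylow p G} {W : Subgroup (MulAut ↥(P : Subgroup G))} [∀ H : Subgroup G, Fintype H] [Fintype W]

theorem charDegree_oneIrr : charDegree ((oneIrr G : IrrCharacter G) : G → ℂ) = 1 :=
  charDegree_natCast (n := 1) (by rw [oneIrr_coe]; simp)

/-- The combinatorial analysis applied to the coefficients. -/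
theorem exists_excStruct (E : ExcSetup P W) (hm2 : 3 + 1 < Nat.card ↥(P : Subgroup G)) : Nonempty (ExcStruct P W) := by
  classical
  haveI := finite_dual E.hab
  letI : Fintype (↥(P : Subgroup G) →* ℂˣ) := Fintype.ofFinite _
  obtain ⟨c, hc⟩ := exists_coeff E
  let Φ := {ψ : ↥(P : Subgroup G) →* ℂˣ // ψ ≠ 1}
  have hdata : CombiData (oneIrr G) (fun χ : IrrCharacter G => (charDegree (χ : G → ℂ) : ℤ))
      (fun ψ φ : Φ => orbR W ψ.1 φ.1) (fun ψ χ => c ψ.1 χ) := by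
    refine ⟨fun χ => ?_, ?_, fun ψ => coeff_one E hc ψ.2, fun ψ φ hR => ?_, fun ψ φ hR => ?_,
      fun ψ => sum_coeff_deg E hc ψ.1, fun ψ => orbR_refl _, fun ψ φ h => orbR_symm h⟩
    · exact_mod_cast charDegree_pos_of_irr χ.2
    · simp only [charDegree_oneIrr, Nat.cast_one]
    · rw [sum_coeff_mul E hc ψ.2 φ.2, if_pos hR]
      norm_num
    · rw [sum_coeff_mul E hc ψ.2 φ.2, if_neg hR]
      norm_num
  have hclass : ∀ ψ : Φ, (Finset.univ.filter ((fun ψ φ : Φ => orbR W ψ.1 φ.1) ψ)).card = 3 := by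
    intro ψ
    let g : W → Φ := fun τ => ⟨rc ψ.1 τ, fun h => ψ.2 (rc_eq_one_iff.1 h)⟩
    have hg : Function.Injective g := by
      intro a b hab
      have h1 : rc ψ.1 (a : MulAut ↥(P : Subgroup G)) = rc ψ.1 b := congrArg Subtype.val hab
      exact Subtype.ext (rc_inj_W E.hab E.hfree ψ.2 a.2 b.2 h1)
    have h2 : Finset.univ.filter ((fun ψ φ : Φ => orbR W ψ.1 φ.1) ψ) = Finset.univ.image g := by
      ext φ
      simp only [Finset.mem_filter, Finset.mem_univ, true_and, Finset.mem_image]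
      constructor
      · rintro ⟨τ, hτ, h3⟩
        exact ⟨⟨τ, hτ⟩, Subtype.ext h3.symm⟩
      · rintro ⟨τ, rfl⟩
        exact ⟨τ, τ.2, rfl⟩
    rw [h2, Finset.card_image_of_injective _ hg, Finset.card_univ, ← Nat.card_eq_fintype_card, E.hW3]
  have hcardΦ : Fintype.card Φ = Nat.card ↥(P : Subgroup G) - 1 := by
    rw [Fintype.card_subtype_compl, Fintype.card_subtype_eq, ← Nat.card_eq_fintype_card, card_dual E.hab]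
  have hcard : Fintype.card Φ ≠ 9 := by
    rw [hcardΦ]
    intro h9
    have h10 : Nat.card ↥(P : Subgroup G) = 10 := by omega
    obtain ⟨n, hn⟩ := IsPGroup.iff_card.1 P.isPGroup'
    rw [h10] at hn
    have h2 : 2 ∣ p ^ n := by rw [← hn]; norm_num
    have h5 : 5 ∣ p ^ n := by rw [← hn]; norm_num
    have h2' := (Nat.prime_dvd_prime_iff_eq Nat.prime_two hp.out).1 (Nat.prime_two.dvd_of_dvd_pow h2)
    have h5' := (Nat.prime_dvd_prime_iff_eq Nat.prime_five hp.out).1 (Nat.prime_five.dvd_of_dvd_pow h5)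
    omega
  have hne : Nonempty Φ := by
    apply Fintype.card_pos_iff.1
    omega
  obtain ⟨ψ₀⟩ := hne
  obtain ⟨φ₀, -, hφ₀⟩ : ∃ φ₀ ∈ (Finset.univ : Finset Φ), φ₀ ∉ Finset.univ.filter ((fun ψ φ : Φ => orbR W ψ.1 φ.1) ψ₀) := by
    apply Finset.exists_mem_notMem_of_card_lt_card
    rw [hclass, Finset.card_univ, hcardΦ]
    omega
  have hR : ¬ orbR W ψ₀.1 φ₀.1 := by
    intro h
    exact hφ₀ (by simpa using h)
  obtain ⟨ξ₁, ξ₂, s₁, s₂, δ, D, ζ, h1, h2, h3, h4, h5, h6, h7, h8, h9, h10⟩ :=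
    structure_thm hdata hclass hcard (ψ₀ := ψ₀) (φ₀ := φ₀) hR
  let ζ' : (↥(P : Subgroup G) →* ℂˣ) → IrrCharacter G := fun ψ => if h : ψ ≠ 1 then ζ ⟨ψ, h⟩ else oneIrr G
  have hζ' : ∀ ψ (h : ψ ≠ 1), ζ' ψ = ζ ⟨ψ, h⟩ := fun ψ h => dif_pos h
  refine ⟨⟨c, ξ₁, ξ₂, s₁, s₂, δ, D, ζ', ψ₀.1, ψ₀.2, hc, h1, h2, h3, h4, h5, h6, h7, ?_, ?_, h10⟩⟩
  · intro ψ hψ
    rw [hζ' ψ hψ]
    exact h8 ⟨ψ, hψ⟩
  · intro ψ hψ φ hφ
    rw [hζ' ψ hψ, hζ' φ hφ]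
    exact h9 ⟨ψ, hψ⟩ ⟨φ, hφ⟩

variable {M : Ideal AlgInt} (E : ExcSetup P W) (S : ExcStruct P W) (hM : IsPModular p M)
  [Fintype (↥(P : Subgroup G) →* ℂˣ)]

include E hM

theorem nu_eq_sum (χ : IrrCharacter G) {y : ↥(P : Subgroup G)} (hy : y ≠ 1) :
    (∑ ψ : ↥(P : Subgroup G) →* ℂˣ, (open Classical in if ψ = 1 then 0 else ((S.c ψ χ : ℤ) : ℂ) * ((ψ y : ℂˣ) : ℂ))) =
      nu M χ y := coeff_inversion E hM S.hc χ hy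

theorem nu_ξ₁ {y : ↥(P : Subgroup G)} (hy : y ≠ 1) : nu M S.ξ₁ y = -(S.s₁ : ℂ) := by
  classical
  rw [← nu_eq_sum E S hM S.ξ₁ hy]
  have h1 : ∀ ψ : ↥(P : Subgroup G) →* ℂˣ, (if ψ = 1 then 0 else ((S.c ψ S.ξ₁ : ℤ) : ℂ) * ((ψ y : ℂˣ) : ℂ)) =
      (S.s₁ : ℂ) * (if ψ = 1 then 0 else ((ψ y : ℂˣ) : ℂ)) := by
    intro ψ
    split_ifs with h
    · simp
    · rw [(S.hval ψ h).1]
  rw [Finset.sum_congr rfl fun ψ _ => h1 ψ, ← Finset.mul_sum, sum_dual_ne_one E.hab hy]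
  ring

theorem nu_ξ₂ {y : ↥(P : Subgroup G)} (hy : y ≠ 1) : nu M S.ξ₂ y = -(S.s₂ : ℂ) := by
  classical
  rw [← nu_eq_sum E S hM S.ξ₂ hy]
  have h1 : ∀ ψ : ↥(P : Subgroup G) →* ℂˣ, (if ψ = 1 then 0 else ((S.c ψ S.ξ₂ : ℤ) : ℂ) * ((ψ y : ℂˣ) : ℂ)) =
      (S.s₂ : ℂ) * (if ψ = 1 then 0 else ((ψ y : ℂˣ) : ℂ)) := by
    intro ψ
    split_ifs with h
    · simp
    · rw [(S.hval ψ h).2.1]
  rw [Finset.sum_congr rfl fun ψ _ => h1 ψ, ← Finset.mul_sum, sum_dual_ne_one E.hab hy]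
  ring

omit hM in
theorem coeff_ζ_of_not {ψ ψ' : ↥(P : Subgroup G) →* ℂˣ} (hψ : ψ ≠ 1) (hψ' : ψ' ≠ 1) (h : ¬ orbR W ψ ψ') :
    S.c ψ' (S.ζ ψ) = 0 := by
  obtain ⟨h1, h2, h3, h4, h5, h6, h7, h8⟩ := S.hval ψ hψ
  refine (S.hval ψ' hψ').2.2.2.2.2.2.2 _ h4 h5 h6 fun h9 => h ((S.hζ ψ hψ ψ' hψ').1 h9.symm)

theorem nu_ζ {ψ₁ : ↥(P : Subgroup G) →* ℂˣ} (hψ₁ : ψ₁ ≠ 1) {y : ↥(P : Subgroup G)} (hy : y ≠ 1) :
    nu M (S.ζ ψ₁) y = (S.δ : ℂ) * hat W ψ₁ y := by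
  classical
  rw [← nu_eq_sum E S hM _ hy]
  have h1 : ∀ ψ : ↥(P : Subgroup G) →* ℂˣ, (if ψ = 1 then 0 else ((S.c ψ (S.ζ ψ₁) : ℤ) : ℂ) * ((ψ y : ℂˣ) : ℂ)) =
      (S.δ : ℂ) * (if orbR W ψ₁ ψ then ((ψ y : ℂˣ) : ℂ) else 0) := by
    intro ψ
    by_cases h : ψ = 1
    · subst h
      rw [if_pos rfl, if_neg, mul_zero]
      intro h2
      exact ne_one_of_orbR h2 hψ₁ rfl
    · rw [if_neg h]
      by_cases h2 : orbR W ψ₁ ψ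
      · rw [if_pos h2, (S.hζ ψ₁ hψ₁ ψ h).2 h2 |>.symm, (S.hval ψ h).2.2.1]
      · rw [if_neg h2, coeff_ζ_of_not E S hψ₁ h h2]
        simp
  rw [Finset.sum_congr rfl fun ψ _ => h1 ψ, ← Finset.mul_sum, ← Finset.sum_filter]
  congr 1
  have h2 : Finset.univ.filter (fun ψ : ↥(P : Subgroup G) →* ℂˣ => orbR W ψ₁ ψ) =
      Finset.univ.image (fun τ : W => rc ψ₁ (τ : MulAut ↥(P : Subgroup G))) := by
    ext ψ
    simp only [Finset.mem_filter, Finset.mem_univ, true_and, Finset.mem_image]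
    constructor
    · rintro ⟨τ, hτ, h3⟩
      exact ⟨⟨τ, hτ⟩, h3.symm⟩
    · rintro ⟨τ, rfl⟩
      exact ⟨τ, τ.2, rfl⟩
  rw [h2, Finset.sum_image (fun a _ b _ hab => Subtype.ext (rc_inj_W E.hab E.hfree hψ₁ a.2 b.2 hab))]
  rfl

theorem nu_other {χ : IrrCharacter G} (h1 : χ ≠ oneIrr G) (h2 : χ ≠ S.ξ₁) (h3 : χ ≠ S.ξ₂) (h4 : ∀ ψ, ψ ≠ 1 → χ ≠ S.ζ ψ)
    {y : ↥(P : Subgroup G)} (hy : y ≠ 1) : nu M χ y = 0 := by
  classical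
  rw [← nu_eq_sum E S hM _ hy]
  refine Finset.sum_eq_zero fun ψ _ => ?_
  split_ifs with h
  · rfl
  · rw [(S.hval ψ h).2.2.2.2.2.2.2 χ h1 h2 h3 (h4 ψ h)]
    simp

end

end Cfsg.Agent.Lib.Exc3
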