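import Mathlib
import Cfsg.Agent.Lib.Exc3.Struct
import Cfsg.Agent.Lib.Char.Constituent

/-!
# The principal block
-/

set_option autoImplicit false
set_option linter.unusedSectionVars false
set_option linter.unusedSimpArgs false
set_option linter.unusedVariables false
set_option linter.style.haveILetI false
set_option linter.unnecessarySimpa false

open scoped ComplexConjugate
open Cfsg

namespace Cfsg.Agent.Lib.Exc3

open Cfsg.Agent.Lib.Char Cfsg.Agent.Lib.Block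

section

variable {G : Type*} [Group G] [Fintype G] {p : ℕ} [hp : Fact p.Prime]
  {P : Sylow p G} {W : Subgroup (MulAut ↥(P : Subgroup G))} [∀ H : Subgroup G, Fintype H] [Fintype W]
  {M : Ideal AlgInt} (E : ExcSetup P W) (S : ExcStruct P W) (hM : IsPModular p M)

include E hM

omit [Fintype W] [∀ H : Subgroup G, Fintype H] in
theorem one_mem_principal : oneIrr G ∈ principalBlock M G := by
  have := isPModular_isPrime hM
  exact mem_blockOf_self (oneIrr G)

theorem ξ₁_mem : S.ξ₁ ∈ principalBlock M G := by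
  by_contra h
  have h1 := coeff_of_notMem E hM S.hc S.ψ₀ h
  rw [(S.hval S.ψ₀ S.hψ₀).1] at h1
  rcases S.hs₁ with h2 | h2 <;> omega

theorem ξ₂_mem : S.ξ₂ ∈ principalBlock M G := by
  by_contra h
  have h1 := coeff_of_notMem E hM S.hc S.ψ₀ h
  rw [(S.hval S.ψ₀ S.hψ₀).2.1] at h1
  rcases S.hs₂ with h2 | h2 <;> omega

theorem ζ_mem {ψ : ↥(P : Subgroup G) →* ℂˣ} (hψ : ψ ≠ 1) : S.ζ ψ ∈ principalBlock M G := by
  by_contra h
  have h1 := coeff_of_notMem E hM S.hc ψ h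
  rw [(S.hval ψ hψ).2.2.1] at h1
  rcases S.hδ with h2 | h2 <;> omega

omit hM in
/-- A `p`-singular element conjugates into a nontrivial section through `P`. -/
theorem exists_conj_sing {z : G} (hz : p ∣ orderOf z) : ∃ (a : G) (y₀ : ↥(P : Subgroup G)) (c : Subgroup.centralizer ({(y₀ : G)} : Set G)),
    y₀ ≠ 1 ∧ ¬ p ∣ orderOf c ∧ a * z * a⁻¹ = y₀ * c := by
  obtain ⟨a, y₀, c, hc, h⟩ := exists_conj_P (P := P) z
  refine ⟨a, y₀, c, ?_, hc, h⟩
  rintro rfl
  apply hc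
  have h1 : (c : G) = a * z * a⁻¹ := by
    rw [h]
    simp
  rw [← Subgroup.orderOf_coe, h1, Cfsg.Agent.Lib.Block.orderOf_conj]
  exact hz

/-- `B₀` consists of the four kinds of characters. -/
theorem principal_subset {χ : IrrCharacter G} (hχ : χ ∈ principalBlock M G) :
    χ = oneIrr G ∨ χ = S.ξ₁ ∨ χ = S.ξ₂ ∨ ∃ ψ, ψ ≠ 1 ∧ χ = S.ζ ψ := by
  classical
  have := isPModular_isPrime hM
  haveI := finite_dual E.hab
  letI : Fintype (↥(P : Subgroup G) →* ℂˣ) := Fintype.ofFinite _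
  by_contra hcon
  push Not at hcon
  obtain ⟨h1, h2, h3, h4⟩ := hcon
  have hnu : ∀ y : ↥(P : Subgroup G), y ≠ 1 → (χ : G → ℂ) y = 0 := by
    intro y hy
    have h5 := nu_other E S hM h1 h2 h3 h4 hy
    unfold nu at h5
    rwa [if_pos hχ] at h5
  have hvan : ∀ z : G, p ∣ orderOf z → (χ : G → ℂ) z = 0 := by
    intro z hz
    obtain ⟨a, y₀, c, hy₀, hc, h⟩ := exists_conj_sing E hz
    have hcl := IsCharacter.isClassFunction (IsIrrCharacter.isCharacter χ.2)
    rw [← hcl z a, h, irr_section_eq E hM hy₀ hχ c hc, hnu y₀ hy₀]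
  have h5 := pow_dvd_degree_of_vanish (IsIrrCharacter.isCharacter χ.2) hvan
  have h6 := blockOf_eq_singleton_of_not_dvd hM χ
    ((not_dvd_card_div_iff hp.out (charDegree_dvd_card χ.2)).2 h5)
  have h7 : principalBlock M G = blockOf M (χ : G → ℂ) := blockOf_eq_of_mem (isPBlock_blockOf (oneIrr G)) hχ
  have h8 : oneIrr G ∈ blockOf M (χ : G → ℂ) := by
    rw [← h7]
    exact one_mem_principal E hM
  rw [h6] at h8
  exact h1 h8.symm

/-- The value of a principal block character on a section. -/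
theorem irr_of_isPPart {χ : IrrCharacter G} (hχ : χ ∈ principalBlock M G) {z : G} {y : ↥(P : Subgroup G)}
    (hz : IsPPart p z (y : G)) (hy : y ≠ 1) : (χ : G → ℂ) z = (χ : G → ℂ) y := by
  obtain ⟨k, rfl, hc, -, hk⟩ := hz
  have hmem : k ∈ Subgroup.centralizer ({(y : G)} : Set G) :=
    Subgroup.mem_centralizer_singleton_iff.2 hc.symm.eq
  exact irr_section_eq E hM hy hχ ⟨k, hmem⟩ (by rwa [Subgroup.orderOf_mk])

variable [Fintype (↥(P : Subgroup G) →* ℂˣ)]

theorem ξ₁_val {y : ↥(P : Subgroup G)} (hy : y ≠ 1) : (S.ξ₁ : G → ℂ) y = -(S.s₁ : ℂ) := by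
  classical
  have h1 := nu_ξ₁ E S hM hy
  unfold nu at h1
  rwa [if_pos (ξ₁_mem E S hM)] at h1

theorem ξ₂_val {y : ↥(P : Subgroup G)} (hy : y ≠ 1) : (S.ξ₂ : G → ℂ) y = -(S.s₂ : ℂ) := by
  classical
  have h1 := nu_ξ₂ E S hM hy
  unfold nu at h1
  rwa [if_pos (ξ₂_mem E S hM)] at h1

theorem ζ_val {ψ : ↥(P : Subgroup G) →* ℂˣ} (hψ : ψ ≠ 1) {y : ↥(P : Subgroup G)} (hy : y ≠ 1) :
    (S.ζ ψ : G → ℂ) y = (S.δ : ℂ) * hat W ψ y := by
  classical
  have h1 := nu_ζ E S hM hψ hy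
  unfold nu at h1
  rwa [if_pos (ζ_mem E S hM hψ)] at h1

end

end Cfsg.Agent.Lib.Exc3
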