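import Mathlib
import Cfsg.Agent.Lib.Exc3.Block
import Cfsg.Agent.Lib.Degree.Sums
import Cfsg.Agent.Lib.Degree.OddDeg
import Cfsg.Agent.Lib.Degree.Cod

/-!
# Products of two conjugate involutions
-/

set_option autoImplicit false
set_option linter.unusedSectionVars false
set_option linter.unusedSimpArgs false
set_option linter.unusedVariables false
set_option linter.style.haveILetI false
set_option linter.unnecessarySimpa false

open scoped ComplexConjugate
open Cfsg

namespace Cfsg.Agent.Lib.Exc3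

open Cfsg.Agent.Lib.Char Cfsg.Agent.Lib.Block Cfsg.Agent.Lib.Degree

section ClassSum

variable {G : Type*} [Group G] [Fintype G]

open Classical in
/-- The indicator of the class of `t`. -/
noncomputable def inCl (t : G) : G → ℂ := fun x => if IsConj t x then 1 else 0

theorem inCl_cl (t : G) : IsClassFunction G (inCl t) := by
  classical
  intro g h
  unfold inCl
  have h1 : IsConj t (h * g * h⁻¹) ↔ IsConj t g := by
    have h2 : IsConj g (h * g * h⁻¹) := isConj_iff.2 ⟨h, rfl⟩
    exact ⟨fun h3 => h3.trans h2.symm, fun h3 => h3.trans h2⟩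
  simp only [h1]

/-- The class length as a complex number. -/
noncomputable def nCl (t : G) : ℂ := ∑ x : G, inCl t x

theorem sum_inCl_mul (t : G) {f : G → ℂ} (hf : IsClassFunction G f) : ∑ x : G, inCl t x * f x = nCl t * f t := by
  classical
  unfold nCl
  rw [Finset.sum_mul]
  refine Finset.sum_congr rfl fun x _ => ?_
  unfold inCl
  split_ifs with h
  · obtain ⟨a, rfl⟩ := isConj_iff.1 h
    rw [hf]
  · simp

theorem nCl_ne_zero (t : G) : nCl t ≠ 0 := by
  classical
  have h1 : nCl t = ((Finset.univ.filter fun x => IsConj t x).card : ℂ) := by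
    unfold nCl inCl
    rw [Finset.card_filter]
    push_cast
    rfl
  rw [h1]
  have h2 : 0 < (Finset.univ.filter fun x => IsConj t x).card :=
    Finset.card_pos.2 ⟨t, Finset.mem_filter.2 ⟨Finset.mem_univ _, IsConj.refl t⟩⟩
  exact_mod_cast h2.ne'

theorem sum_sum_irr (t : G) (χ : IrrCharacter G) :
    ∑ u : G, ∑ v : G, inCl t u * inCl t v * (χ : G → ℂ) (u * v) =
      nCl t ^ 2 * ((χ : G → ℂ) t ^ 2 / (χ : G → ℂ) 1) := by
  have hcl := IsCharacter.isClassFunction (IsIrrCharacter.isCharacter χ.2)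
  have h1 : ∀ u : G, ∑ v : G, inCl t u * inCl t v * (χ : G → ℂ) (u * v) =
      inCl t u * (((nCl t * (χ : G → ℂ) t) / (χ : G → ℂ) 1) * (χ : G → ℂ) u) := by
    intro u
    have h2 := irr_sum_class_mul χ (inCl t) (inCl_cl t) u
    rw [sum_inCl_mul t hcl] at h2
    rw [← h2, Finset.mul_sum]
    refine Finset.sum_congr rfl fun v _ => ?_
    ring
  rw [Finset.sum_congr rfl fun u _ => h1 u]
  have h3 : ∀ u : G, inCl t u * (((nCl t * (χ : G → ℂ) t) / (χ : G → ℂ) 1) * (χ : G → ℂ) u) =
      ((nCl t * (χ : G → ℂ) t) / (χ : G → ℂ) 1) * (inCl t u * (χ : G → ℂ) u) := fun u => by ring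
  rw [Finset.sum_congr rfl fun u _ => h3 u, ← Finset.mul_sum, sum_inCl_mul t hcl]
  ring

/-- The class-product formula for a class function. -/
theorem sum_sum_class (t : G) {F : G → ℂ} (hF : IsClassFunction G F) :
    ∑ u : G, ∑ v : G, inCl t u * inCl t v * F (u * v) =
      nCl t ^ 2 * ∑ χ : IrrCharacter G, classInner F (χ : G → ℂ) * ((χ : G → ℂ) t ^ 2 / (χ : G → ℂ) 1) := by
  have h1 : ∀ z : G, F z = ∑ χ : IrrCharacter G, classInner F (χ : G → ℂ) * (χ : G → ℂ) z := by
    intro z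
    have h2 := congrFun (classFunction_eq_sum F hF) z
    rw [Finset.sum_apply] at h2
    exact h2
  have h3 : ∀ u v : G, inCl t u * inCl t v * F (u * v) =
      ∑ χ : IrrCharacter G, classInner F (χ : G → ℂ) * (inCl t u * inCl t v * (χ : G → ℂ) (u * v)) := by
    intro u v
    rw [h1 (u * v), Finset.mul_sum]
    refine Finset.sum_congr rfl fun χ _ => ?_
    ring
  simp only [h3]
  have h4 : ∀ u : G, (∑ v : G, ∑ χ : IrrCharacter G, classInner F (χ : G → ℂ) * (inCl t u * inCl t v * (χ : G → ℂ) (u * v))) =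
      ∑ χ : IrrCharacter G, classInner F (χ : G → ℂ) * ∑ v : G, inCl t u * inCl t v * (χ : G → ℂ) (u * v) := by
    intro u
    rw [Finset.sum_comm]
    refine Finset.sum_congr rfl fun χ _ => ?_
    rw [Finset.mul_sum]
  simp only [h4]
  rw [Finset.sum_comm, Finset.mul_sum]
  refine Finset.sum_congr rfl fun χ _ => ?_
  rw [← Finset.mul_sum, sum_sum_irr]
  ring

/-- If `F` vanishes on the products of two conjugates of `t`. -/
theorem sum_coeff_sq_eq_zero (t : G) {F : G → ℂ} (hF : IsClassFunction G F)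
    (h : ∀ u v : G, IsConj t u → IsConj t v → F (u * v) = 0) :
    ∑ χ : IrrCharacter G, classInner F (χ : G → ℂ) * ((χ : G → ℂ) t ^ 2 / (χ : G → ℂ) 1) = 0 := by
  classical
  have h1 := sum_sum_class t hF
  have h2 : ∑ u : G, ∑ v : G, inCl t u * inCl t v * F (u * v) = 0 := by
    refine Finset.sum_eq_zero fun u _ => Finset.sum_eq_zero fun v _ => ?_
    unfold inCl
    by_cases hu : IsConj t u
    · by_cases hv : IsConj t v
      · rw [h u v hu hv, mul_zero]
      · simp only [if_neg hv, mul_zero, zero_mul]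
    · simp only [if_neg hu, zero_mul]
  rw [h2] at h1
  have h3 : nCl t ^ 2 ≠ 0 := pow_ne_zero _ (nCl_ne_zero t)
  exact (mul_eq_zero.1 h1.symm).resolve_left h3

/-- If a nontrivial element lies in the kernel of no nonprincipal irreducible character. -/
theorem irr_ne_degree {t : G} (ht : ∀ K : Subgroup G, K.Normal → t ∈ K → K = ⊤) {χ : IrrCharacter G}
    (hχ : χ ≠ oneIrr G) : (χ : G → ℂ) t ≠ (χ : G → ℂ) 1 := by
  intro h
  have hc := IsIrrCharacter.isCharacter χ.2
  have hn := kerOf_normal (IsCharacter.isClassFunction hc)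
  have h1 : t ∈ kerOf (χ : G → ℂ) := (mem_kerOf_iff hc).2 h
  have h2 := ht _ hn h1
  have h3 : ∀ g : G, (χ : G → ℂ) g = (χ : G → ℂ) 1 := by
    intro g
    have h4 : g ∈ kerOf (χ : G → ℂ) := by rw [h2]; trivial
    exact (mem_kerOf_iff hc).1 h4
  obtain ⟨n, hn0, hn1⟩ := irr_degree_natCast χ
  have h5 := classInner_irr_self χ.2
  have h6 : classInner (χ : G → ℂ) (χ : G → ℂ) = (n : ℂ) ^ 2 := by
    rw [classInner_def]
    have h7 : ∀ g : G, (χ : G → ℂ) g * conj ((χ : G → ℂ) g) = (n : ℂ) ^ 2 := by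
      intro g
      rw [h3 g, hn1, Complex.conj_natCast]
      ring
    rw [Finset.sum_congr rfl fun g _ => h7 g]
    simp only [Finset.sum_const, Finset.card_univ, nsmul_eq_mul]
    rw [← Nat.card_eq_fintype_card]
    have hG : (Nat.card G : ℂ) ≠ 0 := by exact_mod_cast Nat.card_pos.ne'
    field_simp
  rw [h6] at h5
  have h8 : (n : ℕ) ^ 2 = 1 := by exact_mod_cast h5
  have h9 : n = 1 := by
    have := Nat.pow_eq_one.1 h8
    omega
  apply hχ
  apply Subtype.ext
  rw [oneIrr_coe]
  funext g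
  rw [h3 g, hn1, h9]
  simp

end ClassSum

section Jordan

variable {G : Type*} [Group G] [Finite G] {p : ℕ} [hp : Fact p.Prime]

theorem orderOf_conj' (t a : G) : orderOf (t * a * t⁻¹) = orderOf a := by
  rw [← MulAut.conj_apply]
  exact MulEquiv.orderOf_eq _ a

/-- An involution inverts the `p`-part of the product of two involutions. -/
theorem invol_inverts {u v y c : G} (hu : u * u = 1) (hv : v * v = 1) (h : u * v = y * c) (hyc : Commute y c)
    (hy : ∃ k, orderOf y = p ^ k) (hc : ¬ p ∣ orderOf c) : u * y * u⁻¹ = y⁻¹ := by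
  have huinv : u⁻¹ = u := inv_eq_of_mul_eq_one_left hu
  have hvinv : v⁻¹ = v := inv_eq_of_mul_eq_one_left hv
  have h1 : IsPPart p ((y * c)⁻¹) y⁻¹ := by
    refine ⟨c⁻¹, ?_, hyc.inv_inv, ?_, ?_⟩
    · rw [mul_inv_rev]
      exact (hyc.inv_inv).eq
    · rwa [orderOf_inv]
    · rwa [orderOf_inv]
  have h2 : IsPPart p ((y * c)⁻¹) (u * y * u⁻¹) := by
    have h3 : (y * c)⁻¹ = u * (y * c) * u⁻¹ := by
      rw [← h, mul_inv_rev, hvinv, huinv]
      calc v * u = (u * u) * (v * u) := by rw [hu, one_mul]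
        _ = u * (u * v) * u := by group
    refine ⟨u * c * u⁻¹, ?_, ?_, ?_, ?_⟩
    · rw [h3]
      group
    · have h4 : y * c = c * y := hyc.eq
      show u * y * u⁻¹ * (u * c * u⁻¹) = u * c * u⁻¹ * (u * y * u⁻¹)
      calc u * y * u⁻¹ * (u * c * u⁻¹) = u * (y * c) * u⁻¹ := by group
        _ = u * (c * y) * u⁻¹ := by rw [h4]
        _ = _ := by group
    · rwa [orderOf_conj']
    · rwa [orderOf_conj']
  exact IsPPart_eq h2 h1

end Jordan

section Real

variable {G : Type*} [Group G] [Fintype G] {p : ℕ} [hp : Fact p.Prime]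
  {P : Sylow p G} {W : Subgroup (MulAut ↥(P : Subgroup G))} (E : ExcSetup P W)

include E

/-- A nontrivial element of `P` which is real is an involution. -/
theorem real_sq_eq_one {y : ↥(P : Subgroup G)} (hy : y ≠ 1) {g : G} (hg : g * (y : G) * g⁻¹ = (y : G)⁻¹) : y * y = 1 := by
  obtain ⟨τ, hτ, h1⟩ := E.hfus y y⁻¹ (by
    refine isConj_iff.2 ⟨g, ?_⟩
    rw [hg]
    rfl)
  by_cases h2 : τ = 1
  · rw [h2] at h1
    have h3 : y = y⁻¹ := h1
    calc y * y = y * y⁻¹ := by rw [← h3]
      _ = 1 := mul_inv_cancel y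
  · exfalso
    have h4 : (τ * τ) y = y := by
      rw [MulAut.mul_apply, h1, map_inv, h1, inv_inv]
    by_cases h5 : τ * τ = 1
    · have hcard : τ ^ 3 = 1 := by
        have h6 : ((⟨τ, hτ⟩ : W)) ^ Nat.card W = 1 := pow_card_eq_one'
        rw [E.hW3] at h6
        exact congrArg Subtype.val h6
      apply h2
      have h7 : τ ^ 3 = (τ * τ) * τ := by rw [pow_succ, pow_two]
      rw [h7, h5, one_mul] at hcard
      exact hcard
    · exact E.hfree _ (W.mul_mem hτ hτ) h5 y hy h4

/-- For odd `p`, the `p`-part of a product of two involutions is trivial. -/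
theorem section_invol (hp2 : p ≠ 2) {u v a : G} (hu : u * u = 1) (hv : v * v = 1) {y₁ : ↥(P : Subgroup G)}
    (c : Subgroup.centralizer ({(y₁ : G)} : Set G)) (hc : ¬ p ∣ orderOf c) (h : a * (u * v) * a⁻¹ = y₁ * c) : y₁ = 1 := by
  by_contra hy₁
  have hu' : (a * u * a⁻¹) * (a * u * a⁻¹) = 1 := by
    calc (a * u * a⁻¹) * (a * u * a⁻¹) = a * (u * u) * a⁻¹ := by group
      _ = 1 := by rw [hu]; group
  have hv' : (a * v * a⁻¹) * (a * v * a⁻¹) = 1 := by
    calc (a * v * a⁻¹) * (a * v * a⁻¹) = a * (v * v) * a⁻¹ := by group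
      _ = 1 := by rw [hv]; group
  have h1 : (a * u * a⁻¹) * (a * v * a⁻¹) = y₁ * c := by
    rw [← h]
    group
  have hyc : Commute (y₁ : G) (c : G) := (Subgroup.mem_centralizer_singleton_iff.1 c.2).symm
  have h2 := invol_inverts hu' hv' h1 hyc (pelt_of_P y₁) (by rwa [Subgroup.orderOf_coe])
  have h3 := real_sq_eq_one E hy₁ h2
  obtain ⟨k, hk⟩ := pelt_of_P y₁
  have h4 : orderOf y₁ ∣ 2 := orderOf_dvd_of_pow_eq_one (by rw [pow_two, h3])
  have h5 : orderOf (y₁ : G) ∣ 2 := by rwa [Subgroup.orderOf_coe]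
  rw [hk] at h5
  have h6 : k = 0 := by
    by_contra hk0
    have h7 : p ∣ 2 := (dvd_pow_self p hk0).trans h5
    exact hp2 ((Nat.prime_dvd_prime_iff_eq hp.out Nat.prime_two).1 h7)
  rw [h6, pow_zero] at hk
  apply hy₁
  apply Subtype.ext
  exact orderOf_eq_one_iff.1 hk

end Real

end Cfsg.Agent.Lib.Exc3
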