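import Mathlib
import Cfsg.Agent.Lib.Exc3.Invol

/-!
# The second part: odd `p`
-/

set_option autoImplicit false
set_option linter.unusedSectionVars false
set_option linter.unusedSimpArgs false
set_option linter.unusedVariables false
set_option linter.style.haveILetI false
set_option linter.unnecessarySimpa false

open scoped ComplexConjugate
open Cfsg

namespace Cfsg.Agent.Lib.Exc3

open Cfsg.Agent.Lib.Char Cfsg.Agent.Lib.Block Cfsg.Agent.Lib.Degree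

/-- The arithmetic of the three moment equations. -/
theorem square_lemma {e₂ e₃ e₄ r₂ r₃ r₄ : ℚ} (E0 : 1 + e₂ + e₃ + e₄ = 0) (E1 : 1 + e₂ * r₂ + e₃ * r₃ + e₄ * r₄ = 0)
    (E2 : 1 + e₂ * r₂ ^ 2 + e₃ * r₃ ^ 2 + e₄ * r₄ ^ 2 = 0) (h₂ : r₂ ≠ 1) (h₃ : r₃ ≠ 1) (h₄ : r₄ ≠ 1) :
    ∃ q : ℚ, e₂ * e₃ * e₄ = q * q := by
  have u₂ : 1 - r₂ ≠ 0 := sub_ne_zero.2 h₂.symm
  have u₃ : 1 - r₃ ≠ 0 := sub_ne_zero.2 h₃.symm
  have u₄ : 1 - r₄ ≠ 0 := sub_ne_zero.2 h₄.symm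
  have I₂ : (1 - r₃) * (1 - r₄) + e₂ * ((r₂ - r₃) * (r₂ - r₄)) = 0 := by
    linear_combination E2 - (r₃ + r₄) * E1 + r₃ * r₄ * E0
  have I₃ : (1 - r₂) * (1 - r₄) + e₃ * ((r₃ - r₂) * (r₃ - r₄)) = 0 := by
    linear_combination E2 - (r₂ + r₄) * E1 + r₂ * r₄ * E0
  have I₄ : (1 - r₂) * (1 - r₃) + e₄ * ((r₄ - r₂) * (r₄ - r₃)) = 0 := by
    linear_combination E2 - (r₂ + r₃) * E1 + r₂ * r₃ * E0
  have d₂₃ : r₂ - r₃ ≠ 0 := by
    intro h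
    rw [h] at I₂
    apply mul_ne_zero u₃ u₄
    linear_combination I₂
  have d₂₄ : r₂ - r₄ ≠ 0 := by
    intro h
    rw [h] at I₂
    apply mul_ne_zero u₃ u₄
    linear_combination I₂
  have d₃₄ : r₃ - r₄ ≠ 0 := by
    intro h
    rw [h] at I₃
    apply mul_ne_zero u₂ u₄
    linear_combination I₃
  set V := (r₂ - r₃) * (r₂ - r₄) * (r₃ - r₄) with hV
  have hV0 : V ≠ 0 := mul_ne_zero (mul_ne_zero d₂₃ d₂₄) d₃₄
  refine ⟨(1 - r₂) * (1 - r₃) * (1 - r₄) / V, ?_⟩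
  have J₂ : e₂ * ((r₂ - r₃) * (r₂ - r₄)) = -((1 - r₃) * (1 - r₄)) := by linear_combination I₂
  have J₃ : e₃ * ((r₃ - r₂) * (r₃ - r₄)) = -((1 - r₂) * (1 - r₄)) := by linear_combination I₃
  have J₄ : e₄ * ((r₄ - r₂) * (r₄ - r₃)) = -((1 - r₂) * (1 - r₃)) := by linear_combination I₄
  have key : e₂ * e₃ * e₄ * (V * V) = ((1 - r₂) * (1 - r₃) * (1 - r₄)) * ((1 - r₂) * (1 - r₃) * (1 - r₄)) := by
    have h1 : e₂ * e₃ * e₄ * (V * V) = -((e₂ * ((r₂ - r₃) * (r₂ - r₄))) * (e₃ * ((r₃ - r₂) * (r₃ - r₄))) * (e₄ * ((r₄ - r₂) * (r₄ - r₃)))) := by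
      rw [hV]
      ring
    rw [h1, J₂, J₃, J₄]
    ring
  field_simp
  linear_combination key

section

variable {G : Type*} [Group G] [Fintype G] {p : ℕ} [hp : Fact p.Prime]
  {P : Sylow p G} {W : Subgroup (MulAut ↥(P : Subgroup G))} [∀ H : Subgroup G, Fintype H] [Fintype W]
  (E : ExcSetup P W) (S : ExcStruct P W)

include E

/-- The expansion of a coefficient sum. -/
theorem sum_four {ψ : ↥(P : Subgroup G) →* ℂˣ} (hψ : ψ ≠ 1) (g : IrrCharacter G → ℂ) :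
    ∑ χ : IrrCharacter G, ((S.c ψ χ : ℤ) : ℂ) * g χ =
      -g (oneIrr G) + (S.s₁ : ℂ) * g S.ξ₁ + (S.s₂ : ℂ) * g S.ξ₂ + (S.δ : ℂ) * g (S.ζ ψ) := by
  classical
  obtain ⟨h1, h2, h3, h4, h5, h6, h7, h8⟩ := S.hval ψ hψ
  have h0 := coeff_one E S.hc hψ
  have hsub : ∑ χ : IrrCharacter G, ((S.c ψ χ : ℤ) : ℂ) * g χ =
      ∑ χ ∈ ({oneIrr G, S.ξ₁, S.ξ₂, S.ζ ψ} : Finset (IrrCharacter G)), ((S.c ψ χ : ℤ) : ℂ) * g χ := by
    symm
    apply Finset.sum_subset (Finset.subset_univ _)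
    intro χ _ hχ
    simp only [Finset.mem_insert, Finset.mem_singleton, not_or] at hχ
    rw [h8 χ hχ.1 hχ.2.1 hχ.2.2.1 hχ.2.2.2]
    simp
  rw [hsub, Finset.sum_insert, Finset.sum_insert, Finset.sum_insert, Finset.sum_singleton, h0, h1, h2, h3]
  · push_cast
    ring
  · simp only [Finset.mem_singleton]
    exact fun h => h6 h.symm
  · simp only [Finset.mem_insert, Finset.mem_singleton, not_or]
    exact ⟨S.hne, fun h => h5 h.symm⟩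
  · simp only [Finset.mem_insert, Finset.mem_singleton, not_or]
    exact ⟨S.hξ₁.symm, S.hξ₂.symm, h4.symm⟩

theorem irr_val_invol (χ : IrrCharacter G) {t : G} (ht : orderOf t = 2) : ∃ n : ℤ, (χ : G → ℂ) t = n := by
  have h1 : t * t = 1 := by rw [← pow_two, ← ht, pow_orderOf_eq_one]
  have h2 : t ≠ 1 := by
    rintro rfl
    simp at ht
  obtain ⟨n, hn⟩ := irr_add_involution χ h1 h2
  obtain ⟨m, -, hm⟩ := irr_degree_natCast χ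
  refine ⟨2 * n - m, ?_⟩
  push_cast
  rw [← hn, hm]
  ring

/-- **The conclusion for odd `p`.** -/
theorem odd_case (hp2 : p ≠ 2) {t : G} (ht : orderOf t = 2) (hK : ∀ K : Subgroup G, K.Normal → t ∈ K → K = ⊤) :
    S.s₁ * S.s₂ * S.δ = -1 ∧
      IsSquare (charDegree (S.ζ S.ψ₀ : G → ℂ) * (charDegree (S.ξ₁ : G → ℂ) * charDegree (S.ξ₂ : G → ℂ))) := by
  classical
  set ψ := S.ψ₀ with hψdef
  have hψ : ψ ≠ 1 := S.hψ₀
  obtain ⟨h1, h2, h3, h4, h5, h6, h7, h8⟩ := S.hval ψ hψ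
  set F := tilde p P (alp W ψ) with hFdef
  have hF : IsClassFunction G F := tilde_cl _
  have hcl : ∀ χ : IrrCharacter G, classInner F (χ : G → ℂ) = ((S.c ψ χ : ℤ) : ℂ) := fun χ => (S.hc ψ χ).symm
  have hreg : ¬ p ∣ orderOf t := by
    rw [ht]
    exact fun h => hp2 ((Nat.prime_dvd_prime_iff_eq hp.out Nat.prime_two).1 h)
  -- the linear moment
  have hFt : F t = 0 := by
    have hmem : t ∈ Subgroup.centralizer ({((1 : ↥(P : Subgroup G)) : G)} : Set G) := by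
      rw [Subgroup.mem_centralizer_singleton_iff]
      simp
    have h0 := tilde_apply E (alp_winv E ψ) (alp_one E.hW3 ψ) 1 ⟨t, hmem⟩ (by rwa [Subgroup.orderOf_mk])
    rw [alp_one E.hW3] at h0
    simpa using h0
  have hA := congrFun (classFunction_eq_sum F hF) t
  rw [hFt, Finset.sum_apply] at hA
  simp only [Pi.smul_apply, smul_eq_mul, hcl] at hA
  rw [sum_four E S hψ (fun χ => (χ : G → ℂ) t)] at hA
  -- the quadratic moment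
  have hB := sum_coeff_sq_eq_zero t hF (fun u v hu hv => by
    obtain ⟨a, y₁, c, hc, h⟩ := exists_conj_P (P := P) (u * v)
    have hu2 : u * u = 1 := by
      obtain ⟨b, rfl⟩ := isConj_iff.1 hu
      have h9 : t * t = 1 := by rw [← pow_two, ← ht, pow_orderOf_eq_one]
      calc b * t * b⁻¹ * (b * t * b⁻¹) = b * (t * t) * b⁻¹ := by group
        _ = 1 := by rw [h9]; group
    have hv2 : v * v = 1 := by
      obtain ⟨b, rfl⟩ := isConj_iff.1 hv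
      have h9 : t * t = 1 := by rw [← pow_two, ← ht, pow_orderOf_eq_one]
      calc b * t * b⁻¹ * (b * t * b⁻¹) = b * (t * t) * b⁻¹ := by group
        _ = 1 := by rw [h9]; group
    have hy₁ := section_invol E hp2 hu2 hv2 c hc h
    rw [hFdef, tilde_of_conj E (alp_winv E ψ) (alp_one E.hW3 ψ) y₁ c hc h, hy₁, alp_one E.hW3])
  simp only [hcl] at hB
  rw [sum_four E S hψ (fun χ => (χ : G → ℂ) t ^ 2 / (χ : G → ℂ) 1)] at hB
  simp only [oneIrr_coe, one_pow, div_one] at hA hB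
  -- integer values
  obtain ⟨n₁, hn₁⟩ := irr_val_invol E S.ξ₁ ht
  obtain ⟨n₂, hn₂⟩ := irr_val_invol E S.ξ₂ ht
  obtain ⟨n₃, hn₃⟩ := irr_val_invol E (S.ζ ψ) ht
  set x₁ := charDegree (S.ξ₁ : G → ℂ) with hx₁
  set x₂ := charDegree (S.ξ₂ : G → ℂ) with hx₂
  set x₃ := charDegree (S.ζ ψ : G → ℂ) with hx₃
  have hd₁ : (S.ξ₁ : G → ℂ) 1 = x₁ := map_one_eq_charDegree (IsIrrCharacter.isCharacter S.ξ₁.2)
  have hd₂ : (S.ξ₂ : G → ℂ) 1 = x₂ := map_one_eq_charDegree (IsIrrCharacter.isCharacter S.ξ₂.2)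
  have hd₃ : (S.ζ ψ : G → ℂ) 1 = x₃ := map_one_eq_charDegree (IsIrrCharacter.isCharacter (S.ζ ψ).2)
  have hp₁ : 0 < x₁ := charDegree_pos_of_irr S.ξ₁.2
  have hp₂ : 0 < x₂ := charDegree_pos_of_irr S.ξ₂.2
  have hp₃ : 0 < x₃ := charDegree_pos_of_irr (S.ζ ψ).2
  have hq₁ : (x₁ : ℚ) ≠ 0 := by exact_mod_cast hp₁.ne'
  have hq₂ : (x₂ : ℚ) ≠ 0 := by exact_mod_cast hp₂.ne'
  have hq₃ : (x₃ : ℚ) ≠ 0 := by exact_mod_cast hp₃.ne'
  rw [hn₁, hn₂, hn₃] at hA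
  rw [hn₁, hn₂, hn₃, hd₁, hd₂, hd₃] at hB
  have hdeg : S.s₁ * (x₁ : ℤ) + S.s₂ * (x₂ : ℤ) + S.δ * (x₃ : ℤ) = 1 := by
    have := S.hdeg
    rw [← h7] at this
    exact this
  have hAq : -1 + (S.s₁ : ℚ) * n₁ + (S.s₂ : ℚ) * n₂ + (S.δ : ℚ) * n₃ = 0 := by
    have : ((-1 + (S.s₁ : ℚ) * n₁ + (S.s₂ : ℚ) * n₂ + (S.δ : ℚ) * n₃ : ℚ) : ℂ) = 0 := by
      push_cast
      linear_combination -hA
    exact_mod_cast this
  have hBq : -1 + (S.s₁ : ℚ) * ((n₁ : ℚ) ^ 2 / x₁) + (S.s₂ : ℚ) * ((n₂ : ℚ) ^ 2 / x₂) + (S.δ : ℚ) * ((n₃ : ℚ) ^ 2 / x₃) = 0 := by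
    have : ((-1 + (S.s₁ : ℚ) * ((n₁ : ℚ) ^ 2 / x₁) + (S.s₂ : ℚ) * ((n₂ : ℚ) ^ 2 / x₂) + (S.δ : ℚ) * ((n₃ : ℚ) ^ 2 / x₃) : ℚ) : ℂ) = 0 := by
      push_cast
      linear_combination hB
    exact_mod_cast this
  have hDq : (S.s₁ : ℚ) * x₁ + (S.s₂ : ℚ) * x₂ + (S.δ : ℚ) * x₃ = 1 := by exact_mod_cast hdeg
  have hne₁ : (n₁ : ℚ) / x₁ ≠ 1 := by
    intro h
    apply irr_ne_degree hK S.hξ₁
    rw [hn₁, hd₁]
    have h9 : (n₁ : ℚ) = x₁ := by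
      rw [div_eq_iff hq₁] at h
      linarith
    exact_mod_cast h9
  have hne₂ : (n₂ : ℚ) / x₂ ≠ 1 := by
    intro h
    apply irr_ne_degree hK S.hξ₂
    rw [hn₂, hd₂]
    have h9 : (n₂ : ℚ) = x₂ := by
      rw [div_eq_iff hq₂] at h
      linarith
    exact_mod_cast h9
  have hne₃ : (n₃ : ℚ) / x₃ ≠ 1 := by
    intro h
    apply irr_ne_degree hK h4
    rw [hn₃, hd₃]
    have h9 : (n₃ : ℚ) = x₃ := by
      rw [div_eq_iff hq₃] at h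
      linarith
    exact_mod_cast h9
  obtain ⟨q, hq⟩ := square_lemma (e₂ := -((S.s₁ : ℚ) * x₁)) (e₃ := -((S.s₂ : ℚ) * x₂)) (e₄ := -((S.δ : ℚ) * x₃))
    (r₂ := (n₁ : ℚ) / x₁) (r₃ := (n₂ : ℚ) / x₂) (r₄ := (n₃ : ℚ) / x₃)
    (by linear_combination -hDq)
    (by
      field_simp
      linear_combination -hAq)
    (by
      have e₁ : -((S.s₁ : ℚ) * x₁) * ((n₁ : ℚ) / x₁) ^ 2 = -((S.s₁ : ℚ) * ((n₁ : ℚ) ^ 2 / x₁)) := by
        field_simp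
      have e₂ : -((S.s₂ : ℚ) * x₂) * ((n₂ : ℚ) / x₂) ^ 2 = -((S.s₂ : ℚ) * ((n₂ : ℚ) ^ 2 / x₂)) := by
        field_simp
      have e₃ : -((S.δ : ℚ) * x₃) * ((n₃ : ℚ) / x₃) ^ 2 = -((S.δ : ℚ) * ((n₃ : ℚ) ^ 2 / x₃)) := by
        field_simp
      rw [e₁, e₂, e₃]
      linear_combination -hBq)
    hne₁ hne₂ hne₃
  have hpos : (0 : ℚ) < (x₁ : ℚ) * x₂ * x₃ := by positivity
  have hprod : -((S.s₁ : ℚ) * x₁) * -((S.s₂ : ℚ) * x₂) * -((S.δ : ℚ) * x₃) =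
      -((S.s₁ * S.s₂ * S.δ : ℤ) : ℚ) * ((x₁ : ℚ) * x₂ * x₃) := by
    push_cast
    ring
  rw [hprod] at hq
  have hsq : 0 ≤ q * q := mul_self_nonneg q
  have hsign : S.s₁ * S.s₂ * S.δ = -1 := by
    have h9 : S.s₁ * S.s₂ * S.δ = 1 ∨ S.s₁ * S.s₂ * S.δ = -1 := by
      rcases S.hs₁ with a | a <;> rcases S.hs₂ with b | b <;> rcases S.hδ with c | c <;> rw [a, b, c] <;> norm_num
    rcases h9 with h9 | h9
    · exfalso
      rw [h9] at hq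
      push_cast at hq
      nlinarith
    · exact h9
  refine ⟨hsign, ?_⟩
  rw [hsign] at hq
  push_cast at hq
  have h10 : (((x₃ * (x₁ * x₂) : ℕ) : ℚ)) = q * q := by
    push_cast
    linear_combination hq
  have h11 : IsSquare (((x₃ * (x₁ * x₂) : ℕ) : ℚ)) := ⟨q, h10⟩
  exact Rat.isSquare_natCast_iff.1 h11

end

end Cfsg.Agent.Lib.Exc3
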