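import Mathlib
import Cfsg.Agent.Lib.Exc3.Odd

/-!
# The second part, `p = 2`: the orbit of the involution
-/

set_option autoImplicit false
set_option linter.unusedSectionVars false
set_option linter.unusedSimpArgs false
set_option linter.unusedVariables false
set_option linter.style.haveILetI false
set_option linter.unnecessarySimpa false

open scoped ComplexConjugate
open Cfsg

namespace Cfsg.Agent.Lib.Exc3

open Cfsg.Agent.Lib.Char Cfsg.Agent.Lib.Block Cfsg.Agent.Lib.Degree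

section Pure

variable {P : Type*} [Group P] {W : Subgroup (MulAut P)}

/-- An element of `W` distinct from the identity, with `|W| = 3`. -/
theorem W_pow_three (hW3 : Nat.card W = 3) {τ : MulAut P} (hτ : τ ∈ W) : τ * τ * τ = 1 := by
  have h6 : ((⟨τ, hτ⟩ : W)) ^ Nat.card W = 1 := pow_card_eq_one'
  rw [hW3] at h6
  have h7 : τ ^ 3 = 1 := congrArg Subtype.val h6
  rwa [pow_succ, pow_two] at h7

theorem W_sq_ne_one (hW3 : Nat.card W = 3) {τ : MulAut P} (hτ : τ ∈ W) (h1 : τ ≠ 1) : τ * τ ≠ 1 := by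
  intro h
  apply h1
  have := W_pow_three hW3 hτ
  rwa [h, one_mul] at this

theorem exists_W_ne (hW3 : Nat.card W = 3) : ∃ τ ∈ W, τ ≠ 1 := by
  haveI : Finite W := Nat.finite_of_card_ne_zero (by omega)
  haveI : Nontrivial W := by
    apply Finite.one_lt_card_iff_nontrivial.1
    omega
  obtain ⟨τ, hτ⟩ := exists_ne (1 : W)
  exact ⟨τ, τ.2, fun h => hτ (Subtype.ext h)⟩

/-- The sum over `W` of order three. -/
theorem sum_W_three [Fintype W] (hW3 : Nat.card W = 3) {τ : MulAut P} (hτ : τ ∈ W) (h1 : τ ≠ 1) (F : MulAut P → ℂ) :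
    ∑ ρ : W, F (ρ : MulAut P) = F 1 + F τ + F (τ * τ) := by
  classical
  have h2 := W_sq_ne_one hW3 hτ h1
  have h3 : τ * τ ≠ τ := fun h => h1 (mul_eq_right.1 h)
  have hu : (Finset.univ : Finset W) = {⟨1, W.one_mem⟩, ⟨τ, hτ⟩, ⟨τ * τ, W.mul_mem hτ hτ⟩} := by
    symm
    apply Finset.eq_of_subset_of_card_le (Finset.subset_univ _)
    rw [Finset.card_univ, ← Nat.card_eq_fintype_card, hW3]
    have h4 : ({⟨1, W.one_mem⟩, ⟨τ, hτ⟩, ⟨τ * τ, W.mul_mem hτ hτ⟩} : Finset W).card = 3 := by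
      apply Finset.card_eq_three.2
      refine ⟨_, _, _, ?_, ?_, ?_, rfl⟩
      · exact fun h => h1 (congrArg Subtype.val h).symm
      · exact fun h => h2 (congrArg Subtype.val h).symm
      · exact fun h => h3 (congrArg Subtype.val h).symm
    omega
  rw [hu, Finset.sum_insert, Finset.sum_insert, Finset.sum_singleton]
  · ring
  · simp only [Finset.mem_singleton]
    exact fun h => h3 (congrArg Subtype.val h).symm
  · simp only [Finset.mem_insert, Finset.mem_singleton, not_or]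
    exact ⟨fun h => h1 (congrArg Subtype.val h).symm, fun h => h2 (congrArg Subtype.val h).symm⟩

/-- The product of the orbit of an element under a fixed-point-free automorphism of order three. -/
theorem orbit_prod (hab : ∀ a b : P, a * b = b * a) (hW3 : Nat.card W = 3) (hfree : FreeOn W) {τ : MulAut P} (hτ : τ ∈ W)
    (h1 : τ ≠ 1) (t : P) : t * τ t * (τ * τ) t = 1 := by
  by_contra hne
  apply hfree τ hτ h1 _ hne
  have h3 : (τ * τ * τ) t = t := by rw [W_pow_three hW3 hτ]; rfl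
  have h2 : τ ((τ * τ) t) = t := by
    have : (τ * τ * τ) t = τ (τ (τ t)) := rfl
    rw [this] at h3
    exact h3
  rw [map_mul, map_mul, h2]
  show τ t * (τ * τ) t * t = _
  rw [hab (τ t * (τ * τ) t) t, mul_assoc]

/-- The product of two members of the orbit of an involution is a member. -/
theorem orbit_mul (hab : ∀ a b : P, a * b = b * a) (hW3 : Nat.card W = 3) (hfree : FreeOn W) {t : P} (ht : t * t = 1)
    {ρ₁ ρ₂ : MulAut P} (h₁ : ρ₁ ∈ W) (h₂ : ρ₂ ∈ W) (hne : ρ₁ ≠ ρ₂) : ∃ ρ ∈ W, ρ₁ t * ρ₂ t = ρ t := by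
  set τ := ρ₁⁻¹ * ρ₂ with hτdef
  have hτ : τ ∈ W := W.mul_mem (W.inv_mem h₁) h₂
  have h1 : τ ≠ 1 := by
    intro h
    apply hne
    exact (inv_mul_eq_one.1 h)
  refine ⟨ρ₁ * (τ * τ), W.mul_mem h₁ (W.mul_mem hτ hτ), ?_⟩
  have h2 : ρ₂ = ρ₁ * τ := by rw [hτdef]; group
  have h3 := orbit_prod hab hW3 hfree hτ h1 t
  have h4 : ((τ * τ) t) * ((τ * τ) t) = 1 := by
    rw [← map_mul, ht, map_one]
  have h5 : t * τ t = (τ * τ) t := by
    calc t * τ t = t * τ t * ((τ * τ) t * (τ * τ) t) := by rw [h4, mul_one]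
      _ = (t * τ t * (τ * τ) t) * (τ * τ) t := by group
      _ = (τ * τ) t := by rw [h3, one_mul]
  rw [h2]
  show ρ₁ t * ρ₁ (τ t) = ρ₁ ((τ * τ) t)
  rw [← map_mul, h5]

variable [Fintype W]

/-- `ψ̂(t)² = 3 + 2 ψ̂(t)` for an involution `t`. -/
theorem hat_sq (hab : ∀ a b : P, a * b = b * a) (hW3 : Nat.card W = 3) (hfree : FreeOn W) {t : P} (ht : t * t = 1)
    (ψ : P →* ℂˣ) : hat W ψ t ^ 2 = 3 + 2 * hat W ψ t := by
  obtain ⟨τ, hτ, h1⟩ := exists_W_ne hW3
  have h2 : hat W ψ t = ((ψ t : ℂˣ) : ℂ) + ((ψ (τ t) : ℂˣ) : ℂ) + ((ψ ((τ * τ) t) : ℂˣ) : ℂ) := by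
    unfold hat
    rw [sum_W_three hW3 hτ h1 (fun ρ => ((ψ (ρ t) : ℂˣ) : ℂ))]
    rfl
  have h3 := orbit_prod hab hW3 hfree hτ h1 t
  have hsq : ∀ x : P, x * x = 1 → ((ψ x : ℂˣ) : ℂ) * ((ψ x : ℂˣ) : ℂ) = 1 := by
    intro x hx
    rw [← Units.val_mul, ← map_mul, hx, map_one, Units.val_one]
  have ha := hsq t ht
  have hb := hsq (τ t) (by rw [← map_mul, ht, map_one])
  have hc := hsq ((τ * τ) t) (by rw [← map_mul, ht, map_one])
  have habc : ((ψ t : ℂˣ) : ℂ) * ((ψ (τ t) : ℂˣ) : ℂ) * ((ψ ((τ * τ) t) : ℂˣ) : ℂ) = 1 := by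
    rw [← Units.val_mul, ← Units.val_mul, ← map_mul, ← map_mul, h3, map_one, Units.val_one]
  rw [h2]
  set a := ((ψ t : ℂˣ) : ℂ)
  set b := ((ψ (τ t) : ℂˣ) : ℂ)
  set c := ((ψ ((τ * τ) t) : ℂˣ) : ℂ)
  have hab' : a * b = c := by
    calc a * b = a * b * (c * c) := by rw [hc, mul_one]
      _ = (a * b * c) * c := by ring
      _ = c := by rw [habc, one_mul]
  have hac : a * c = b := by
    calc a * c = a * c * (b * b) := by rw [hb, mul_one]
      _ = (a * b * c) * b := by ring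
      _ = b := by rw [habc, one_mul]
  have hbc : b * c = a := by
    calc b * c = b * c * (a * a) := by rw [ha, mul_one]
      _ = (a * b * c) * a := by ring
      _ = a := by rw [habc, one_mul]
  linear_combination ha + hb + hc + 2 * hab' + 2 * hac + 2 * hbc

end Pure

end Cfsg.Agent.Lib.Exc3
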