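import Mathlib
import Cfsg.Agent.Lib.Exc3.Even1

/-!
# The second part, `p = 2`: vanishing on products of two conjugates of the involution
-/

set_option autoImplicit false
set_option linter.unusedSectionVars false
set_option linter.unusedSimpArgs false
set_option linter.unusedVariables false
set_option linter.style.haveILetI false
set_option linter.unnecessarySimpa false

open scoped ComplexConjugate
open Cfsg

namespace Cfsg.Agent.Lib.Exc3

open Cfsg.Agent.Lib.Char Cfsg.Agent.Lib.Block Cfsg.Agent.Lib.Degree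

section Retract

variable {E : Type*} [Group E]

/-- A normal complement gives a retraction. -/
theorem exists_retract {K Q : Subgroup E} (hK : K.Normal) (hc : K.IsComplement' Q) :
    ∃ f : E →* Q, (∀ q : Q, f q = q) ∧ ∀ k ∈ K, f k = 1 := by
  let φ : Q →* E ⧸ K := (QuotientGroup.mk' K).comp Q.subtype
  have hinj : Function.Injective φ := by
    rw [injective_iff_map_eq_one]
    intro s hs
    have h1 : (s : E) ∈ K := (QuotientGroup.eq_one_iff (s : E)).1 hs
    have h2 := Subgroup.disjoint_def.1 hc.disjoint h1 s.2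
    exact Subtype.ext h2
  have hsurj : Function.Surjective φ := by
    intro x
    obtain ⟨e, rfl⟩ := QuotientGroup.mk_surjective x
    obtain ⟨⟨k, s⟩, hks⟩ := hc.2 e
    refine ⟨s, ?_⟩
    rw [← hks]
    apply (QuotientGroup.eq_iff_div_mem).2
    show (s : E) / ((k : E) * (s : E)) ∈ K
    have h3 : (s : E) / ((k : E) * (s : E)) = (k : E)⁻¹ := by
      rw [div_eq_mul_inv, mul_inv_rev, mul_inv_cancel_left]
    rw [h3]
    exact K.inv_mem k.2
  let e' := MulEquiv.ofBijective φ ⟨hinj, hsurj⟩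
  let f : E →* Q := e'.symm.toMonoidHom.comp (QuotientGroup.mk' K)
  refine ⟨f, fun q => ?_, fun k hk => ?_⟩
  · show e'.symm (QuotientGroup.mk (q : E)) = q
    exact e'.symm_apply_apply q
  · show e'.symm (QuotientGroup.mk k) = 1
    rw [(QuotientGroup.eq_one_iff k).2 hk, map_one]

end Retract

section

variable {G : Type*} [Group G] [Fintype G] {p : ℕ} [hp : Fact p.Prime]
  {P : Sylow p G} {W : Subgroup (MulAut ↥(P : Subgroup G))} (E : ExcSetup P W)

include E

/-- The retraction of the centralizer onto `P`. -/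
theorem exists_retract_P {y : ↥(P : Subgroup G)} (hy : y ≠ 1) :
    ∃ f : Subgroup.centralizer ({(y : G)} : Set G) →* ↥(P : Subgroup G),
      (∀ (d : Subgroup.centralizer ({(y : G)} : Set G)) (x : ↥(P : Subgroup G)), (d : G) = x → f d = x) ∧
      (∀ k : Subgroup.centralizer ({(y : G)} : Set G), ¬ p ∣ orderOf k → f k = 1) := by
  classical
  obtain ⟨K, hK, h1, h2, h3⟩ := reg_iff_mem E hy
  have hQD : (P : Subgroup G) ≤ Subgroup.centralizer ({(y : G)} : Set G) := by
    intro z hz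
    rw [Subgroup.mem_centralizer_singleton_iff]
    exact congrArg Subtype.val (E.hab ⟨z, hz⟩ y)
  let Q := (P : Subgroup G).subgroupOf (Subgroup.centralizer ({(y : G)} : Set G))
  have hQ : Q = (P : Subgroup G).subgroupOf (Subgroup.centralizer ({(y : G)} : Set G)) := rfl
  have hQcard : Nat.card Q = Nat.card ↥(P : Subgroup G) :=
    Nat.card_congr (Subgroup.subgroupOfEquivOfLe hQD).toEquiv
  have hPp : (Nat.card K).Coprime (Nat.card Q) := by
    rw [hQcard]
    obtain ⟨n, hn⟩ := IsPGroup.iff_card.1 P.isPGroup'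
    rw [hn]
    exact Nat.Coprime.pow_right _ h2
  have hc : K.IsComplement' Q := Subgroup.isComplement'_of_coprime (by rw [hQcard]; exact h3) hPp
  obtain ⟨f, hf1, hf2⟩ := exists_retract hK hc
  let e := Subgroup.subgroupOfEquivOfLe hQD
  refine ⟨e.toMonoidHom.comp f, fun d x hdx => ?_, fun k hk => ?_⟩
  · have hd : d ∈ Q := by
      rw [hQ, Subgroup.mem_subgroupOf, hdx]
      exact x.2
    have h4 := hf1 ⟨d, hd⟩
    have h5 : f d = ⟨d, hd⟩ := h4
    apply Subtype.ext
    show ((e (f d) : ↥(P : Subgroup G)) : G) = x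
    rw [h5]
    exact hdx
  · show e (f k) = 1
    rw [hf2 k ((h1 k).1 hk), map_one]

/-- A `p`-element of a subgroup containing `P` conjugates into `P` inside that subgroup. -/
theorem exists_conj_in_sub (D : Subgroup G) (hD : (P : Subgroup G) ≤ D) {x : D} (hx : ∃ k, orderOf x = p ^ k) :
    ∃ d : D, ((d * x * d⁻¹ : D) : G) ∈ (P : Subgroup G) := by
  obtain ⟨k, hk⟩ := hx
  have hxp : IsPGroup p (Subgroup.zpowers x) := by
    refine IsPGroup.of_card (n := k) ?_
    rw [Nat.card_zpowers, hk]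
  obtain ⟨Q, hQ⟩ := hxp.exists_le_sylow
  obtain ⟨d, hd⟩ := MulAction.exists_smul_eq D Q (P.subtype hD)
  refine ⟨d, ?_⟩
  have h1 : x ∈ (Q : Subgroup D) := hQ (Subgroup.mem_zpowers x)
  have h2 : d * x * d⁻¹ ∈ ((d • Q : Sylow p D) : Subgroup D) := by
    rw [Sylow.coe_subgroup_smul]
    exact ⟨x, h1, rfl⟩
  rw [hd] at h2
  exact Subgroup.mem_subgroupOf.1 h2

/-- **The vanishing for `p = 2`.** -/
theorem even_vanish (hp2 : p = 2) {t y₀ : ↥(P : Subgroup G)} (ht : t * t = 1) (ht1 : t ≠ 1) (hy₀ : y₀ ≠ 1)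
    (hy₀' : ∀ ρ ∈ W, ρ t ≠ y₀) {u v : G} (hu : IsConj (t : G) u) (hv : IsConj (t : G) v) :
    gy p (y₀ : G) (u * v) = 0 := by
  classical
  obtain ⟨a, y₁, c, hc, h⟩ := exists_conj_P (P := P) (u * v)
  rw [← gy_cl (y₀ : G) (u * v) a, h]
  by_cases hconj : IsConj (y₁ : G) (y₀ : G)
  swap
  · exact gy_not_conj (pelt_of_P y₀) (pelt_of_P y₁) hconj c hc
  exfalso
  obtain ⟨ρ₀, hρ₀, hρ₀y⟩ := E.hfus _ _ hconj
  have hy₁ : y₁ ≠ 1 := by
    rintro rfl
    apply hy₀
    rw [← hρ₀y, map_one]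
  have htG : (t : G) * t = 1 := congrArg Subtype.val ht
  have hconjinv : ∀ x : G, IsConj (t : G) x → x * x = 1 := by
    intro x hx
    obtain ⟨b, rfl⟩ := isConj_iff.1 hx
    calc b * (t : G) * b⁻¹ * (b * t * b⁻¹) = b * ((t : G) * t) * b⁻¹ := by group
      _ = 1 := by rw [htG]; group
  -- conjugate everything
  set u' := a * u * a⁻¹ with hu'
  set v' := a * v * a⁻¹ with hv'
  have hcu : IsConj (t : G) u' := hu.trans (isConj_iff.2 ⟨a, rfl⟩)
  have hcv : IsConj (t : G) v' := hv.trans (isConj_iff.2 ⟨a, rfl⟩)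
  have hu2 := hconjinv _ hcu
  have hv2 := hconjinv _ hcv
  have h1 : u' * v' = y₁ * c := by
    rw [← h, hu', hv']
    group
  have hyc : Commute (y₁ : G) (c : G) := (Subgroup.mem_centralizer_singleton_iff.1 c.2).symm
  have hinv := invol_inverts hu2 hv2 h1 hyc (pelt_of_P y₁) (by rwa [Subgroup.orderOf_coe])
  have hsq := real_sq_eq_one E hy₁ hinv
  have hy₁inv : (y₁ : G)⁻¹ = y₁ := by
    have : (y₁ : G) * y₁ = 1 := congrArg Subtype.val hsq
    exact inv_eq_of_mul_eq_one_left this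
  have huD : u' ∈ Subgroup.centralizer ({(y₁ : G)} : Set G) := by
    rw [Subgroup.mem_centralizer_singleton_iff]
    rw [hy₁inv] at hinv
    exact mul_inv_eq_iff_eq_mul.1 hinv
  have hvD : v' ∈ Subgroup.centralizer ({(y₁ : G)} : Set G) := by
    have h2 : v' = u'⁻¹ * (y₁ * c) := by rw [← h1]; group
    rw [h2]
    refine Subgroup.mul_mem _ (Subgroup.inv_mem _ huD) (Subgroup.mul_mem _ ?_ c.2)
    exact Subgroup.mem_centralizer_singleton_iff.2 rfl
  -- the retraction
  obtain ⟨f, hf1, hf2⟩ := exists_retract_P E hy₁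
  have hQD : (P : Subgroup G) ≤ Subgroup.centralizer ({(y₁ : G)} : Set G) := by
    intro z hz
    rw [Subgroup.mem_centralizer_singleton_iff]
    exact congrArg Subtype.val (E.hab ⟨z, hz⟩ y₁)
  have hkey : ∀ x : Subgroup.centralizer ({(y₁ : G)} : Set G), IsConj (t : G) x →
      ∃ ρ ∈ W, f x = ρ t := by
    intro x hx
    have hxo : ∃ k, orderOf x = p ^ k := by
      refine ⟨1, ?_⟩
      have h2o : orderOf (x : G) = 2 := by
        apply orderOf_eq_prime
        · rw [pow_two]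
          exact hconjinv _ hx
        · intro h2
          apply ht1
          apply Subtype.ext
          have h3 : IsConj (t : G) 1 := by rwa [h2] at hx
          exact isConj_one_right.1 h3.symm
      rw [pow_one, ← Subgroup.orderOf_coe, h2o]
      exact hp2.symm
    obtain ⟨d, hd⟩ := exists_conj_in_sub E _ hQD hxo
    have h3 := hf1 (d * x * d⁻¹) ⟨_, hd⟩ rfl
    have h4 : f (d * x * d⁻¹) = f x := by
      rw [map_mul, map_mul, map_inv, E.hab (f d) (f x)]
      group
    rw [h4] at h3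
    rw [h3]
    have h5 : IsConj (t : G) ((d * x * d⁻¹ : Subgroup.centralizer ({(y₁ : G)} : Set G)) : G) := by
      refine hx.trans (isConj_iff.2 ⟨d, ?_⟩)
      simp
    obtain ⟨ρ, hρ, hρt⟩ := E.hfus t ⟨_, hd⟩ h5
    exact ⟨ρ, hρ, hρt.symm⟩
  obtain ⟨ρ₁, hρ₁, hf₁⟩ := hkey ⟨u', huD⟩ hcu
  obtain ⟨ρ₂, hρ₂, hf₂⟩ := hkey ⟨v', hvD⟩ hcv
  have hy₁D : (y₁ : G) ∈ Subgroup.centralizer ({(y₁ : G)} : Set G) := Subgroup.mem_centralizer_singleton_iff.2 rfl
  have hprod : (⟨u', huD⟩ : Subgroup.centralizer ({(y₁ : G)} : Set G)) * ⟨v', hvD⟩ = ⟨y₁, hy₁D⟩ * c := Subtype.ext h1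
  have h6 := congrArg f hprod
  rw [map_mul, map_mul, hf₁, hf₂, hf1 ⟨y₁, hy₁D⟩ y₁ rfl, hf2 c hc, mul_one] at h6
  by_cases hρ : ρ₁ = ρ₂
  · apply hy₁
    rw [← h6, hρ, ← map_mul, ht, map_one]
  · obtain ⟨ρ, hρW, hρe⟩ := orbit_mul E.hab E.hW3 E.hfree ht hρ₁ hρ₂ hρ
    rw [hρe] at h6
    apply hy₀' (ρ₀ * ρ) (W.mul_mem hρ₀ hρW)
    rw [← hρ₀y, ← h6]
    rfl

end

end Cfsg.Agent.Lib.Exc3
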