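import Mathlib
import Cfsg.Agent.Lib.Exc3.Even2
import Cfsg.Agent.Lib.Degree.ClassProd

/-!
# The second part, `p = 2`: there is no such involution
-/

set_option autoImplicit false
set_option linter.unusedSectionVars false
set_option linter.unusedSimpArgs false
set_option linter.unusedVariables false
set_option linter.style.haveILetI false
set_option linter.unnecessarySimpa false

open scoped ComplexConjugate
open Cfsg

namespace Cfsg.Agent.Lib.Exc3

open Cfsg.Agent.Lib.Char Cfsg.Agent.Lib.Block Cfsg.Agent.Lib.Degree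

/-- The Diophantine equation. -/
theorem dioph {u v : ℤ} (hu : (4 : ℤ) ∣ u - 1) (hv : (4 : ℤ) ∣ v - 1)
    (h : (u * v + u + v) * (1 + u + v) = 9 * (u * v)) : u = 1 ∧ v = 1 := by
  obtain ⟨a, ha⟩ := hu
  obtain ⟨b, hb⟩ := hv
  have hu' : u = 4 * a + 1 := by linarith
  have hv' : v = 4 * b + 1 := by linarith
  set k := a + b with hk
  set m := a - b with hm
  set g := 2 * k + 1 with hg
  set c := 2 * m with hc
  have e₁ : u = g + c := by rw [hu', hg, hc, hk, hm]; ring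
  have e₂ : v = g - c := by rw [hv', hg, hc, hk, hm]; ring
  have key : g * (g - 1) ^ 2 = c ^ 2 * (g - 4) := by
    rw [e₁, e₂] at h
    have h20 : 2 * (g * (g - 1) ^ 2) = 2 * (c ^ 2 * (g - 4)) := by linear_combination h
    exact mul_left_cancel₀ two_ne_zero h20
  by_cases hg1 : g = 1
  · rw [hg1] at key
    have h0 : c = 0 := by nlinarith [sq_nonneg c]
    rw [e₁, e₂, hg1, h0]
    norm_num
  · exfalso
    have hB : g - 1 ≠ 0 := sub_ne_zero.2 hg1
    have h2 : (g - 1) ^ 2 ∣ (c * (g - 4)) ^ 2 := ⟨g * (g - 4), by linear_combination (g - 4) * (-key)⟩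
    have h3 : g - 1 ∣ c * (g - 4) := (Int.pow_dvd_pow_iff (by norm_num)).1 h2
    obtain ⟨w, hw⟩ := h3
    have h4 : g * (g - 4) = w ^ 2 := by
      have h5 : (g - 1) ^ 2 * (g * (g - 4)) = (g - 1) ^ 2 * w ^ 2 := by
        have h6 : (c * (g - 4)) ^ 2 = ((g - 1) * w) ^ 2 := by rw [hw]
        linear_combination (g - 4) * key + h6
      exact mul_left_cancel₀ (pow_ne_zero 2 hB) h5
    obtain ⟨r, hr⟩ := (Int.even_mul_pred_self k).exists_two_nsmul
    have hr' : k * (k - 1) = 2 * r := by simpa using hr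
    have h7 : w ^ 2 = 8 * r - 3 := by
      rw [← h4, hg]
      linear_combination 4 * hr'
    rcases Int.even_or_odd' w with ⟨s, hs | hs⟩
    · rw [hs] at h7
      have : 2 * (2 * s * s) = 8 * r - 3 := by linear_combination h7
      omega
    · obtain ⟨r', hr''⟩ := (Int.even_mul_succ_self s).exists_two_nsmul
      have hr3 : s * (s + 1) = 2 * r' := by simpa using hr''
      rw [hs] at h7
      have : 8 * r' + 1 = 8 * r - 3 := by linear_combination h7 - 4 * hr3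
      omega

section

variable {G : Type*} [Group G] [Fintype G] {p : ℕ} [hp : Fact p.Prime]
  {P : Sylow p G} {W : Subgroup (MulAut ↥(P : Subgroup G))} [∀ H : Subgroup G, Fintype H] [Fintype W]
  {M : Ideal AlgInt} (E : ExcSetup P W) (S : ExcStruct P W) (hM : IsPModular p M)

/-- The congruence satisfied by a degree. -/
theorem deg_cong (χ : IrrCharacter G) (a : ℤ) (hval : ∀ y : ↥(P : Subgroup G), y ≠ 1 → (χ : G → ℂ) y = a) :
    (Nat.card ↥(P : Subgroup G) : ℤ) ∣ (charDegree (χ : G → ℂ) : ℤ) - a := by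
  classical
  obtain ⟨n, hn⟩ := sum_irr_inv_eq_card_mul (P : Subgroup G) χ
  have h1 : ∀ w : ↥(P : Subgroup G), (χ : G → ℂ) (w : G)⁻¹ = (a : ℂ) + if w = 1 then ((charDegree (χ : G → ℂ) : ℂ) - a) else 0 := by
    intro w
    split_ifs with h
    · subst h
      simp only [OneMemClass.coe_one, inv_one]
      rw [map_one_eq_charDegree (IsIrrCharacter.isCharacter χ.2)]
      ring
    · rw [add_zero]
      have h2 := hval w⁻¹ (inv_ne_one.2 h)
      simpa using h2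
  rw [Finset.sum_congr rfl fun w _ => h1 w, Finset.sum_add_distrib] at hn
  simp only [Finset.sum_const, Finset.card_univ, nsmul_eq_mul, Finset.sum_ite_eq', Finset.mem_univ, if_true] at hn
  rw [← Nat.card_eq_fintype_card] at hn
  have h3 : (charDegree (χ : G → ℂ) : ℂ) - a = (Nat.card ↥(P : Subgroup G) : ℂ) * ((n : ℂ) - a) := by
    linear_combination hn
  refine ⟨(n : ℤ) - a, ?_⟩
  have h4 : (((charDegree (χ : G → ℂ) : ℤ) - a : ℤ) : ℂ) = (((Nat.card ↥(P : Subgroup G) : ℤ) * ((n : ℤ) - a) : ℤ) : ℂ) := by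
    push_cast
    exact h3
  exact_mod_cast h4

include E hM

/-- The equation for `p = 2`. -/
theorem even_eq (hp2 : p = 2) {t : ↥(P : Subgroup G)} (ht : t * t = 1) (ht1 : t ≠ 1)
    (hm2 : 3 + 1 < Nat.card ↥(P : Subgroup G)) :
    1 - (S.s₁ : ℂ) / (charDegree (S.ξ₁ : G → ℂ) : ℂ) - (S.s₂ : ℂ) / (charDegree (S.ξ₂ : G → ℂ) : ℂ) - 9 * (S.δ : ℂ) / (S.D : ℂ) = 0 := by
  classical
  haveI := finite_dual E.hab
  letI : Fintype (↥(P : Subgroup G) →* ℂˣ) := Fintype.ofFinite _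
  -- the element `y₀`
  obtain ⟨y₀, -, hy₀m⟩ : ∃ y₀ ∈ (Finset.univ : Finset ↥(P : Subgroup G)),
      y₀ ∉ insert (1 : ↥(P : Subgroup G)) ((Finset.univ : Finset W).image fun ρ : W => (ρ : MulAut ↥(P : Subgroup G)) t) := by
    apply Finset.exists_mem_notMem_of_card_lt_card
    have h1 := Finset.card_insert_le (1 : ↥(P : Subgroup G)) ((Finset.univ : Finset W).image fun ρ : W => (ρ : MulAut ↥(P : Subgroup G)) t)
    have h2 : ((Finset.univ : Finset W).image fun ρ : W => (ρ : MulAut ↥(P : Subgroup G)) t).card ≤ 3 := by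
      refine Finset.card_image_le.trans ?_
      rw [Finset.card_univ, ← Nat.card_eq_fintype_card, E.hW3]
    rw [Finset.card_univ, ← Nat.card_eq_fintype_card]
    omega
  rw [Finset.mem_insert, not_or] at hy₀m
  obtain ⟨hy₀, hy₀'⟩ := hy₀m
  have hy₀'' : ∀ ρ ∈ W, ρ t ≠ y₀ := by
    intro ρ hρ h
    apply hy₀'
    exact Finset.mem_image.2 ⟨⟨ρ, hρ⟩, Finset.mem_univ _, h⟩
  have hP0 : (Nat.card ↥(P : Subgroup G) : ℂ) ≠ 0 := by exact_mod_cast Nat.card_pos.ne'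
  -- the vanishing
  have hB := sum_coeff_sq_eq_zero (t : G) (gy_cl (p := p) (y₀ : G)) (fun u v hu hv => even_vanish E hp2 ht ht1 hy₀ hy₀'' hu hv)
  set f : IrrCharacter G → ℂ := fun χ => (χ : G → ℂ) t ^ 2 / (χ : G → ℂ) 1 with hf
  have hB1 : ∑ χ : IrrCharacter G, conj (nu M χ y₀) * f χ = 0 := by
    have h1 : ∀ χ : IrrCharacter G, classInner (gy p (y₀ : G)) (χ : G → ℂ) * f χ =
        (Nat.card ↥(P : Subgroup G) : ℂ)⁻¹ * (conj (nu M χ y₀) * f χ) := by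
      intro χ
      rw [classInner_gy_irr E hM hy₀]
      ring
    rw [Finset.sum_congr rfl fun χ _ => h1 χ, ← Finset.mul_sum] at hB
    exact (mul_eq_zero.1 hB).resolve_left (inv_ne_zero hP0)
  -- expand
  have h2 : ∀ χ : IrrCharacter G, conj (nu M χ y₀) * f χ =
      ∑ ψ : ↥(P : Subgroup G) →* ℂˣ, if ψ = 1 then 0 else ((S.c ψ χ : ℤ) : ℂ) * f χ * conj ((ψ y₀ : ℂˣ) : ℂ) := by
    intro χ
    rw [← nu_eq_sum E S hM χ hy₀, map_sum, Finset.sum_mul]
    refine Finset.sum_congr rfl fun ψ _ => ?_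
    split_ifs
    · simp
    · rw [map_mul, map_intCast]
      ring
  rw [Finset.sum_congr rfl fun χ _ => h2 χ, Finset.sum_comm] at hB1
  have hxne₁ : (charDegree (S.ξ₁ : G → ℂ) : ℂ) ≠ 0 := by exact_mod_cast (charDegree_pos_of_irr S.ξ₁.2).ne'
  have hxne₂ : (charDegree (S.ξ₂ : G → ℂ) : ℂ) ≠ 0 := by exact_mod_cast (charDegree_pos_of_irr S.ξ₂.2).ne'
  have hDne : (S.D : ℂ) ≠ 0 := by exact_mod_cast S.hD.ne'
  have hsq : ∀ z : ℤ, (z = 1 ∨ z = -1) → (z : ℂ) * z = 1 := by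
    rintro z (rfl | rfl) <;> norm_num
  have h3 : ∀ ψ : ↥(P : Subgroup G) →* ℂˣ, ψ ≠ 1 → ∑ χ : IrrCharacter G, ((S.c ψ χ : ℤ) : ℂ) * f χ =
      (-1 + (S.s₁ : ℂ) / (charDegree (S.ξ₁ : G → ℂ) : ℂ) + (S.s₂ : ℂ) / (charDegree (S.ξ₂ : G → ℂ) : ℂ) + 3 * (S.δ : ℂ) / (S.D : ℂ)) +
        2 * (S.δ : ℂ) / (S.D : ℂ) * hat W ψ t := by
    intro ψ hψ
    rw [sum_four E S hψ f]
    obtain ⟨h1, h2, h3, h4, h5, h6, h7, h8⟩ := S.hval ψ hψ
    have e₁ : f (oneIrr G) = 1 := by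
      simp only [hf, oneIrr_coe]
      norm_num
    have e₂ : f S.ξ₁ = 1 / (charDegree (S.ξ₁ : G → ℂ) : ℂ) := by
      simp only [hf]
      rw [ξ₁_val E S hM ht1, map_one_eq_charDegree (IsIrrCharacter.isCharacter S.ξ₁.2)]
      congr 1
      linear_combination hsq _ S.hs₁
    have e₃ : f S.ξ₂ = 1 / (charDegree (S.ξ₂ : G → ℂ) : ℂ) := by
      simp only [hf]
      rw [ξ₂_val E S hM ht1, map_one_eq_charDegree (IsIrrCharacter.isCharacter S.ξ₂.2)]
      congr 1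
      linear_combination hsq _ S.hs₂
    have e₄ : f (S.ζ ψ) = (3 + 2 * hat W ψ t) / (S.D : ℂ) := by
      simp only [hf]
      rw [ζ_val E S hM hψ ht1, map_one_eq_charDegree (IsIrrCharacter.isCharacter (S.ζ ψ).2)]
      have h9 : ((charDegree (S.ζ ψ : G → ℂ) : ℕ) : ℂ) = (S.D : ℂ) := by
        rw [← h7]
        push_cast
        rfl
      rw [h9, ← hat_sq E.hab E.hW3 E.hfree ht ψ]
      congr 1
      linear_combination (hat W ψ t) ^ 2 * hsq _ S.hδ
    rw [e₁, e₂, e₃, e₄]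
    field_simp
    ring
  have h4 : ∀ ψ : ↥(P : Subgroup G) →* ℂˣ, (∑ χ : IrrCharacter G, if ψ = 1 then 0 else ((S.c ψ χ : ℤ) : ℂ) * f χ * conj ((ψ y₀ : ℂˣ) : ℂ)) =
      (-1 + (S.s₁ : ℂ) / (charDegree (S.ξ₁ : G → ℂ) : ℂ) + (S.s₂ : ℂ) / (charDegree (S.ξ₂ : G → ℂ) : ℂ) + 3 * (S.δ : ℂ) / (S.D : ℂ)) *
          (if ψ = 1 then 0 else conj ((ψ y₀ : ℂˣ) : ℂ)) +
        2 * (S.δ : ℂ) / (S.D : ℂ) * ∑ ρ : W, if ψ = 1 then 0 else ((ψ ((ρ : MulAut ↥(P : Subgroup G)) t) : ℂˣ) : ℂ) * conj ((ψ y₀ : ℂˣ) : ℂ) := by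
    intro ψ
    split_ifs with h
    · simp
    · rw [← Finset.sum_mul, h3 ψ h]
      unfold hat
      rw [← Finset.sum_mul]
      ring
  rw [Finset.sum_congr rfl fun ψ _ => h4 ψ, Finset.sum_add_distrib, ← Finset.mul_sum, ← Finset.mul_sum] at hB1
  have h5 : (∑ ψ : ↥(P : Subgroup G) →* ℂˣ, if ψ = 1 then 0 else conj ((ψ y₀ : ℂˣ) : ℂ)) = -1 := by
    have h6 := sum_dual_ne_one E.hab hy₀
    have h7 := congrArg (starRingEnd ℂ) h6
    rw [map_sum] at h7
    have h8 : ∀ ψ : ↥(P : Subgroup G) →* ℂˣ, (starRingEnd ℂ) (if ψ = 1 then (0 : ℂ) else ((ψ y₀ : ℂˣ) : ℂ)) = if ψ = 1 then 0 else conj ((ψ y₀ : ℂˣ) : ℂ) := by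
      intro ψ
      split_ifs <;> simp
    rw [Finset.sum_congr rfl fun ψ _ => h8 ψ] at h7
    rw [h7]
    simp
  have h6 : (∑ ψ : ↥(P : Subgroup G) →* ℂˣ, ∑ ρ : W, if ψ = 1 then 0 else ((ψ ((ρ : MulAut ↥(P : Subgroup G)) t) : ℂˣ) : ℂ) * conj ((ψ y₀ : ℂˣ) : ℂ)) = -3 := by
    rw [Finset.sum_comm]
    rw [Finset.sum_congr rfl fun (ρ : W) _ => sum_dual_ne_one_conj E.hab (hy₀'' ρ ρ.2)]
    simp only [Finset.sum_const, Finset.card_univ, nsmul_eq_mul]
    rw [← Nat.card_eq_fintype_card, E.hW3]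
    norm_num
  rw [h5, h6] at hB1
  linear_combination hB1

end

end Cfsg.Agent.Lib.Exc3
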