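import Mathlib
import Cfsg.Agent.Lib.Exc3.Even3

/-!
# The second part, `p = 2`: contradiction; the count of the orbit
-/

set_option autoImplicit false
set_option linter.unusedSectionVars false
set_option linter.unusedSimpArgs false
set_option linter.unusedVariables false
set_option linter.style.haveILetI false
set_option linter.unnecessarySimpa false

open scoped ComplexConjugate
open Cfsg

namespace Cfsg.Agent.Lib.Exc3

open Cfsg.Agent.Lib.Char Cfsg.Agent.Lib.Block Cfsg.Agent.Lib.Degree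

section

variable {G : Type*} [Group G] [Fintype G] {p : ℕ} [hp : Fact p.Prime]
  {P : Sylow p G} {W : Subgroup (MulAut ↥(P : Subgroup G))} [∀ H : Subgroup G, Fintype H] [Fintype W]
  {M : Ideal AlgInt} (E : ExcSetup P W) (S : ExcStruct P W) (hM : IsPModular p M)

include E hM S

/-- **There is no such involution for `p = 2`.** -/
theorem even_case (hp2 : p = 2) {t₀ : G} (ht₀ : orderOf t₀ = 2) (hK₀ : ∀ K : Subgroup G, K.Normal → t₀ ∈ K → K = ⊤)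
    (hm2 : 3 + 1 < Nat.card ↥(P : Subgroup G)) : False := by
  classical
  haveI := finite_dual E.hab
  letI : Fintype (↥(P : Subgroup G) →* ℂˣ) := Fintype.ofFinite _
  -- conjugate into `P`
  have ht₀2 : t₀ * t₀ = 1 := by rw [← pow_two, ← ht₀, pow_orderOf_eq_one]
  have ht₀1 : t₀ ≠ 1 := by
    rintro rfl
    simp at ht₀
  have hxp : IsPGroup p (Subgroup.zpowers t₀) := by
    refine IsPGroup.of_card (n := 1) ?_
    rw [Nat.card_zpowers, ht₀, pow_one, hp2]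
  obtain ⟨Q, hQ⟩ := hxp.exists_le_sylow
  obtain ⟨a, ha⟩ := MulAction.exists_smul_eq G Q P
  have h1 : t₀ ∈ (Q : Subgroup G) := hQ (Subgroup.mem_zpowers t₀)
  have h2 : a * t₀ * a⁻¹ ∈ (P : Subgroup G) := by
    rw [← ha, Sylow.coe_subgroup_smul]
    exact ⟨t₀, h1, rfl⟩
  let t : ↥(P : Subgroup G) := ⟨a * t₀ * a⁻¹, h2⟩
  have htG : (t : G) = a * t₀ * a⁻¹ := rfl
  have ht : t * t = 1 := by
    apply Subtype.ext
    show a * t₀ * a⁻¹ * (a * t₀ * a⁻¹) = 1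
    calc a * t₀ * a⁻¹ * (a * t₀ * a⁻¹) = a * (t₀ * t₀) * a⁻¹ := by group
      _ = 1 := by rw [ht₀2]; group
  have ht1 : t ≠ 1 := by
    intro h3
    have h4 : a * t₀ * a⁻¹ = 1 := congrArg Subtype.val h3
    apply ht₀1
    have h5 : t₀ = a⁻¹ * (a * t₀ * a⁻¹) * a := by group
    rw [h5, h4]
    group
  have hK : ∀ K : Subgroup G, K.Normal → (t : G) ∈ K → K = ⊤ := by
    intro K hKn hmem
    apply hK₀ K hKn
    have h5 := hKn.conj_mem _ hmem a⁻¹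
    have h6 : a⁻¹ * (t : G) * a⁻¹⁻¹ = t₀ := by
      rw [htG]
      group
    rwa [h6] at h5
  -- the equation
  have heq := even_eq E S hM hp2 ht ht1 hm2
  obtain ⟨h₁, h₂, h₃, h₄, h₅, h₆, h₇, h₈⟩ := S.hval S.ψ₀ S.hψ₀
  set x₁ : ℤ := (charDegree (S.ξ₁ : G → ℂ) : ℤ) with hx₁
  set x₂ : ℤ := (charDegree (S.ξ₂ : G → ℂ) : ℤ) with hx₂
  have hx₁p : 0 < x₁ := by
    rw [hx₁]
    exact_mod_cast charDegree_pos_of_irr S.ξ₁.2
  have hx₂p : 0 < x₂ := by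
    rw [hx₂]
    exact_mod_cast charDegree_pos_of_irr S.ξ₂.2
  have hDp := S.hD
  have hxc₁ : (x₁ : ℂ) ≠ 0 := by exact_mod_cast hx₁p.ne'
  have hxc₂ : (x₂ : ℂ) ≠ 0 := by exact_mod_cast hx₂p.ne'
  have hDc : (S.D : ℂ) ≠ 0 := by exact_mod_cast hDp.ne'
  have hcast₁ : ((charDegree (S.ξ₁ : G → ℂ) : ℕ) : ℂ) = (x₁ : ℂ) := by
    rw [hx₁]
    push_cast
    rfl
  have hcast₂ : ((charDegree (S.ξ₂ : G → ℂ) : ℕ) : ℂ) = (x₂ : ℂ) := by
    rw [hx₂]
    push_cast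
    rfl
  rw [hcast₁, hcast₂] at heq
  have hE : x₁ * x₂ * S.D - S.s₁ * x₂ * S.D - S.s₂ * x₁ * S.D - 9 * S.δ * x₁ * x₂ = 0 := by
    have h3 : ((x₁ * x₂ * S.D - S.s₁ * x₂ * S.D - S.s₂ * x₁ * S.D - 9 * S.δ * x₁ * x₂ : ℤ) : ℂ) = 0 := by
      push_cast
      field_simp at heq
      linear_combination heq
    exact_mod_cast h3
  have hdeg : S.s₁ * x₁ + S.s₂ * x₂ + S.δ * S.D = 1 := S.hdeg
  have hs1 : S.s₁ * S.s₁ = 1 := by rcases S.hs₁ with h | h <;> rw [h] <;> norm_num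
  have hs2 : S.s₂ * S.s₂ = 1 := by rcases S.hs₂ with h | h <;> rw [h] <;> norm_num
  have hs3 : S.δ * S.δ = 1 := by rcases S.hδ with h | h <;> rw [h] <;> norm_num
  -- the congruences
  have h4P : (4 : ℤ) ∣ (Nat.card ↥(P : Subgroup G) : ℤ) := by
    obtain ⟨n, hn⟩ := IsPGroup.iff_card.1 P.isPGroup'
    have hn' : Nat.card ↥(P : Subgroup G) = 2 ^ n := hn.trans (by rw [hp2])
    rw [hn'] at hm2 ⊢
    have hn2 : 2 ≤ n := by
      by_contra hlt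
      have : n = 0 ∨ n = 1 := by omega
      rcases this with rfl | rfl <;> norm_num at hm2
    have h5 : (4 : ℕ) ∣ 2 ^ n := by
      have : (2 : ℕ) ^ 2 ∣ 2 ^ n := pow_dvd_pow 2 hn2
      simpa using this
    exact_mod_cast h5
  have hc₁ : (4 : ℤ) ∣ x₁ + S.s₁ := by
    have h5 := deg_cong S.ξ₁ (-S.s₁) (fun y hy => by
      rw [ξ₁_val E S hM hy]
      push_cast
      rfl)
    rw [sub_neg_eq_add] at h5
    exact h4P.trans h5
  have hc₂ : (4 : ℤ) ∣ x₂ + S.s₂ := by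
    have h5 := deg_cong S.ξ₂ (-S.s₂) (fun y hy => by
      rw [ξ₂_val E S hM hy]
      push_cast
      rfl)
    rw [sub_neg_eq_add] at h5
    exact h4P.trans h5
  have hu : (4 : ℤ) ∣ (-(S.s₁ * x₁)) - 1 := by
    obtain ⟨k, hk⟩ := hc₁
    refine ⟨-S.s₁ * k, ?_⟩
    linear_combination (-S.s₁) * hk + hs1
  have hv : (4 : ℤ) ∣ (-(S.s₂ * x₂)) - 1 := by
    obtain ⟨k, hk⟩ := hc₂
    refine ⟨-S.s₂ * k, ?_⟩
    linear_combination (-S.s₂) * hk + hs2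
  have hmain : ((-(S.s₁ * x₁)) * (-(S.s₂ * x₂)) + (-(S.s₁ * x₁)) + (-(S.s₂ * x₂))) * (1 + (-(S.s₁ * x₁)) + (-(S.s₂ * x₂))) =
      9 * ((-(S.s₁ * x₁)) * (-(S.s₂ * x₂))) := by
    have h5 : 1 + (-(S.s₁ * x₁)) + (-(S.s₂ * x₂)) = S.δ * S.D := by linear_combination -hdeg
    rw [h5]
    linear_combination (S.s₁ * S.s₂ * S.δ) * hE + (S.s₂ * S.δ * x₂ * S.D) * hs1 + (S.s₁ * S.δ * x₁ * S.D) * hs2 +
      (9 * S.s₁ * S.s₂ * x₁ * x₂) * hs3
  obtain ⟨hu1, -⟩ := dioph hu hv hmain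
  -- `ξ₁` is linear with `t` in its kernel
  have hval₁ : (S.ξ₁ : G → ℂ) t = -(S.s₁ : ℂ) := ξ₁_val E S hM ht1
  have hdeg₁ : (S.ξ₁ : G → ℂ) 1 = (x₁ : ℂ) := by
    rw [map_one_eq_charDegree (IsIrrCharacter.isCharacter S.ξ₁.2), hcast₁]
  apply irr_ne_degree hK S.hξ₁
  rw [hval₁, hdeg₁]
  have h5 : x₁ = - S.s₁ := by
    have h6 : S.s₁ * (S.s₁ * x₁) = S.s₁ * (-1) := by
      congr 1
      linear_combination -hu1
    rw [← mul_assoc, hs1, one_mul] at h6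
    linarith
  rw [h5]
  push_cast
  rfl

omit hM S in
/-- The orbit sum as a sum over the set of orbit members. -/
theorem sum_orbit [Fintype (↥(P : Subgroup G) →* ℂˣ)] {ψ₁ : ↥(P : Subgroup G) →* ℂˣ} (hψ₁ : ψ₁ ≠ 1) (y : ↥(P : Subgroup G)) :
    ∑ ψ ∈ (open Classical in Finset.univ.filter (fun ψ : ↥(P : Subgroup G) →* ℂˣ => orbR W ψ₁ ψ)), ((ψ y : ℂˣ) : ℂ) = hat W ψ₁ y := by
  classical
  have h2 : Finset.univ.filter (fun ψ : ↥(P : Subgroup G) →* ℂˣ => orbR W ψ₁ ψ) =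
      Finset.univ.image (fun τ : W => rc ψ₁ (τ : MulAut ↥(P : Subgroup G))) := by
    ext ψ
    simp only [Finset.mem_filter, Finset.mem_univ, true_and, Finset.mem_image]
    constructor
    · rintro ⟨τ, hτ, h3⟩
      exact ⟨⟨τ, hτ⟩, h3.symm⟩
    · rintro ⟨τ, rfl⟩
      exact ⟨τ, τ.2, rfl⟩
  rw [h2, Finset.sum_image (fun a _ b _ hab => Subtype.ext (rc_inj_W E.hab E.hfree hψ₁ a.2 b.2 hab))]
  rfl

omit hM S in
/-- The cardinality of an orbit. -/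
theorem card_orbit [Fintype (↥(P : Subgroup G) →* ℂˣ)] {ψ₁ : ↥(P : Subgroup G) →* ℂˣ} (hψ₁ : ψ₁ ≠ 1) :
    (open Classical in (Finset.univ.filter (fun ψ : ↥(P : Subgroup G) →* ℂˣ => orbR W ψ₁ ψ)).card) = 3 := by
  classical
  have h2 : Finset.univ.filter (fun ψ : ↥(P : Subgroup G) →* ℂˣ => orbR W ψ₁ ψ) =
      Finset.univ.image (fun τ : W => rc ψ₁ (τ : MulAut ↥(P : Subgroup G))) := by
    ext ψ
    simp only [Finset.mem_filter, Finset.mem_univ, true_and, Finset.mem_image]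
    constructor
    · rintro ⟨τ, hτ, h3⟩
      exact ⟨⟨τ, hτ⟩, h3.symm⟩
    · rintro ⟨τ, rfl⟩
      exact ⟨τ, τ.2, rfl⟩
  rw [h2, Finset.card_image_of_injective _ (fun a b hab => Subtype.ext (rc_inj_W E.hab E.hfree hψ₁ a.2 b.2 hab)),
    Finset.card_univ, ← Nat.card_eq_fintype_card, E.hW3]

end

end Cfsg.Agent.Lib.Exc3
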