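import Mathlib
import Cfsg.Agent.Lib.Exc3.Even4

/-!
# Assembling the statement
-/

set_option autoImplicit false
set_option linter.unusedSectionVars false
set_option linter.unusedSimpArgs false
set_option linter.unusedVariables false
set_option linter.style.haveILetI false
set_option linter.unnecessarySimpa false

open scoped ComplexConjugate
open Cfsg

namespace Cfsg.Agent.Lib.Exc3

open Cfsg.Agent.Lib.Char Cfsg.Agent.Lib.Block Cfsg.Agent.Lib.Degree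

section

variable {G : Type*} [Group G] [Fintype G] {p : ℕ} [hp : Fact p.Prime]
  {P : Sylow p G} {W : Subgroup (MulAut ↥(P : Subgroup G))} [∀ H : Subgroup G, Fintype H] [Fintype W]
  {M : Ideal AlgInt} (E : ExcSetup P W) (S : ExcStruct P W)

include E

omit [Fintype G] [∀ H : Subgroup G, Fintype H] [Fintype W] in
/-- The `N`-orbit of `ψ` is its `W`-orbit. -/
theorem orbit_set_eq (ψ : ↥(P : Subgroup G) →* ℂˣ) :
    {ψ' : ↥(P : Subgroup G) →* ℂˣ | ∃ n : G, n ∈ Subgroup.normalizer ((P : Subgroup G) : Set G) ∧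
      ∀ w w' : ↥(P : Subgroup G), (w' : G) = n * w * n⁻¹ → ψ' w' = ψ w} = {ψ' | orbR W ψ ψ'} := by
  ext ψ'
  simp only [Set.mem_setOf_eq]
  constructor
  · rintro ⟨n, hn, h⟩
    obtain ⟨τ, hτ, hτn⟩ := E.hact₁ n hn
    refine ⟨τ⁻¹, W.inv_mem hτ, ?_⟩
    ext y
    have h1 := h (τ⁻¹ y) y (by
      rw [← hτn]
      simp)
    show ((ψ' y : ℂˣ) : ℂ) = ((ψ (τ⁻¹ y) : ℂˣ) : ℂ)
    rw [h1]
  · rintro ⟨τ, hτ, rfl⟩
    obtain ⟨n, hn, hτn⟩ := E.hact₂ τ⁻¹ (W.inv_mem hτ)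
    refine ⟨n, hn, fun w w' hw => ?_⟩
    have h1 : w' = τ⁻¹ w := by
      apply Subtype.ext
      rw [hτn, hw]
    rw [h1]
    simp [rc]

/-- Constancy of `ζ` on `N`-orbits. -/
theorem zeta_of_conj {ψ ψ' : ↥(P : Subgroup G) →* ℂˣ} (hψ : ψ ≠ 1)
    (h : ∃ n : G, n ∈ Subgroup.normalizer ((P : Subgroup G) : Set G) ∧
      ∀ w w' : ↥(P : Subgroup G), (w' : G) = n * w * n⁻¹ → ψ' w' = ψ w) : S.ζ ψ' = S.ζ ψ := by
  have h1 : ψ' ∈ {ψ' : ↥(P : Subgroup G) →* ℂˣ | ∃ n : G, n ∈ Subgroup.normalizer ((P : Subgroup G) : Set G) ∧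
      ∀ w w' : ↥(P : Subgroup G), (w' : G) = n * w * n⁻¹ → ψ' w' = ψ w} := h
  rw [orbit_set_eq E ψ] at h1
  exact (S.hζ ψ hψ ψ' (ne_one_of_orbR h1 hψ)).2 h1

/-- The orbit sum as a `finsum`. -/
theorem finsum_orbit [Fintype (↥(P : Subgroup G) →* ℂˣ)] {ψ : ↥(P : Subgroup G) →* ℂˣ} (hψ : ψ ≠ 1) (y : ↥(P : Subgroup G)) :
    ∑ᶠ ψ' ∈ {ψ' : ↥(P : Subgroup G) →* ℂˣ | ∃ n : G, n ∈ Subgroup.normalizer ((P : Subgroup G) : Set G) ∧
      ∀ w w' : ↥(P : Subgroup G), (w' : G) = n * w * n⁻¹ → ψ' w' = ψ w}, ((ψ' y : ℂˣ) : ℂ) = hat W ψ y := by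
  classical
  rw [orbit_set_eq E ψ, ← sum_orbit E hψ y]
  have h1 : {ψ' | orbR W ψ ψ'} = ((Finset.univ.filter (fun ψ' : ↥(P : Subgroup G) →* ℂˣ => orbR W ψ ψ') : Finset _) : Set (↥(P : Subgroup G) →* ℂˣ)) := by
    ext ψ'
    simp
  rw [h1, finsum_mem_coe_finset]

/-- The number of exceptional characters. -/
theorem card_image_zeta [Fintype (↥(P : Subgroup G) →* ℂˣ)] :
    Nat.card (S.ζ '' {ψ : ↥(P : Subgroup G) →* ℂˣ | ψ ≠ 1}) = (Nat.card ↥(P : Subgroup G) - 1) / 3 := by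
  classical
  set A := Finset.univ.filter (fun ψ : ↥(P : Subgroup G) →* ℂˣ => ψ ≠ 1) with hA
  have h1 : S.ζ '' {ψ : ↥(P : Subgroup G) →* ℂˣ | ψ ≠ 1} = ((A.image S.ζ : Finset _) : Set (IrrCharacter G)) := by
    ext η
    simp [hA]
  rw [h1, Nat.card_coe_set_eq, Set.ncard_coe_finset]
  have hAcard : A.card = Nat.card ↥(P : Subgroup G) - 1 := by
    have h2 : A = Finset.univ.erase (1 : ↥(P : Subgroup G) →* ℂˣ) := by
      ext ψ
      simp [hA]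
    rw [h2, Finset.card_erase_of_mem (Finset.mem_univ _), Finset.card_univ, ← Nat.card_eq_fintype_card, card_dual E.hab]
  have h3 := Finset.card_eq_sum_card_image S.ζ A
  have h4 : ∀ η ∈ A.image S.ζ, (A.filter fun ψ => S.ζ ψ = η).card = 3 := by
    intro η hη
    obtain ⟨ψ₁, hψ₁, rfl⟩ := Finset.mem_image.1 hη
    have hψ₁' : ψ₁ ≠ 1 := (Finset.mem_filter.1 hψ₁).2
    rw [← card_orbit E hψ₁']
    congr 1
    ext ψ
    simp only [Finset.mem_filter, hA, Finset.mem_univ, true_and]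
    constructor
    · rintro ⟨h5, h6⟩
      exact (S.hζ ψ₁ hψ₁' ψ h5).1 h6
    · intro h5
      have h6 := ne_one_of_orbR h5 hψ₁'
      exact ⟨h6, (S.hζ ψ₁ hψ₁' ψ h6).2 h5⟩
  rw [Finset.sum_congr rfl h4, Finset.sum_const, smul_eq_mul] at h3
  rw [← hAcard, h3]
  omega

end

end Cfsg.Agent.Lib.Exc3
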